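import Mathlib
import Cfsg.Agent.Lib.Lead.CharMGroup
import Cfsg.Agent.Lib.Lead.CharCodeg
import Cfsg.Agent.Lib.Lead.CharClifford
import Cfsg.Agent.Lib.Lead.CharCons
import Cfsg.Agent.Lib.Lead.CharIntegral

set_option autoImplicit false

namespace Cfsg.Agent.Lib.Lead

open Module Cfsg.Agent.Lib.Helper2

section Transfer

/-- The transfer of `ϕ` at an element all of whose conjugates lie in `H` with the same
`ϕ`-value `c` is `c ^ [G : H]`. -/
theorem transfer_apply_of_normal {G : Type*} [Group G] (H : Subgroup G) [H.FiniteIndex]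
    {A : Type*} [CommGroup A] (ϕ : H →* A) (m : G) (hm : ∀ x : G, x⁻¹ * m * x ∈ H) (c : A)
    (hc : ∀ x : G, ϕ ⟨x⁻¹ * m * x, hm x⟩ = c) : MonoidHom.transfer ϕ m = c ^ H.index := by
  classical
  letI := H.fintypeQuotientOfFiniteIndex
  let T : H.LeftTransversal := default
  rw [MonoidHom.transfer_def ϕ T m]
  unfold Subgroup.leftTransversals.diff
  have hfix : ∀ q : G ⧸ H, m⁻¹ • q = q := by
    intro q
    induction q using QuotientGroup.induction_on with
    | H x =>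
      show ((m⁻¹ * x : G) : G ⧸ H) = x
      rw [QuotientGroup.eq]
      have := hm x
      simpa [mul_assoc] using this
  have key : ∀ (a : G) (ha : a ∈ H) (x : G), a = x⁻¹ * m * x → ϕ ⟨a, ha⟩ = c := by
    intro a ha x hax
    subst hax
    exact hc x
  have hidx : H.index = Fintype.card (G ⧸ H) := by
    rw [Subgroup.index_eq_card, Nat.card_eq_fintype_card]
  rw [hidx, ← Finset.card_univ, ← Finset.prod_const]
  apply Finset.prod_congr rfl
  intro q _
  apply key _ _ ((T.2.leftQuotientEquiv q : G))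
  rw [Subgroup.smul_apply_eq_smul_apply_inv_smul, hfix, smul_eq_mul, mul_assoc]

end Transfer

section LinExt

variable {Γ : Type*} [Group Γ] [Finite Γ] (M : Subgroup Γ) [hM : M.Normal] (lam₀ : M →* ℂˣ)

/-- An invariant linear character of a normal subgroup extends to the whole group as soon as,
for every prime `p` dividing its exponent `o`, it extends to a subgroup of index prime to `p`. -/
theorem linear_extends_of_coprime_index
    (hinv : ∀ (g : Γ) (m : M), lam₀ ⟨g * m * g⁻¹, hM.conj_mem m m.2 g⟩ = lam₀ m) (o : ℕ)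
    (ho : o ≠ 0) (hpow : ∀ m : M, lam₀ m ^ o = 1)
    (hsyl : ∀ p : ℕ, p.Prime → p ∣ o → ∃ (H : Subgroup Γ) (hMH : M ≤ H) (ν : H →* ℂˣ),
      ¬ p ∣ H.index ∧ ∀ m : M, ν ⟨m, hMH m.2⟩ = lam₀ m) :
    ∃ μ : Γ →* ℂˣ, ∀ m : M, μ m = lam₀ m := by
  let E : AddSubgroup ℤ :=
    { carrier := {j | ∃ μ : Γ →* ℂˣ, ∀ m : M, μ m = lam₀ m ^ j}
      zero_mem' := ⟨1, fun m => by simp⟩
      add_mem' := by
        rintro a b ⟨μ₁, h₁⟩ ⟨μ₂, h₂⟩
        exact ⟨μ₁ * μ₂, fun m => by rw [MonoidHom.mul_apply, h₁, h₂, zpow_add]⟩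
      neg_mem' := by
        rintro a ⟨μ, h⟩
        exact ⟨μ⁻¹, fun m => by rw [MonoidHom.inv_apply, h, zpow_neg]⟩ }
  have hoE : (o : ℤ) ∈ E := ⟨1, fun m => by rw [zpow_natCast, hpow]; rfl⟩
  have hidx : ∀ p : ℕ, p.Prime → p ∣ o → ∃ j : ℕ, ¬ p ∣ j ∧ (j : ℤ) ∈ E := by
    intro p hp hpo
    obtain ⟨H, hMH, ν, hpH, hν⟩ := hsyl p hp hpo
    refine ⟨H.index, hpH, MonoidHom.transfer ν, fun m => ?_⟩
    have hm : ∀ x : Γ, x⁻¹ * (m : Γ) * x ∈ H := fun x =>
      hMH (by have := hM.conj_mem m m.2 x⁻¹; rwa [inv_inv] at this)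
    rw [zpow_natCast]
    apply transfer_apply_of_normal H ν (m : Γ) hm (lam₀ m)
    intro x
    have h1 := hinv x⁻¹ m
    have h2 : (⟨x⁻¹ * (m : Γ) * x, hm x⟩ : H) =
        ⟨((⟨x⁻¹ * m * x⁻¹⁻¹, hM.conj_mem m m.2 x⁻¹⟩ : M) : Γ), hMH (Subtype.coe_prop _)⟩ := by
      apply Subtype.ext; simp
    rw [h2, hν, h1]
  obtain ⟨g, hg⟩ := Int.subgroup_cyclic E
  have hmemE : ∀ j : ℤ, j ∈ E ↔ g ∣ j := by
    intro j
    rw [hg, AddSubgroup.mem_closure_singleton]
    constructor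
    · rintro ⟨n, rfl⟩; exact ⟨n, by rw [smul_eq_mul, mul_comm]⟩
    · rintro ⟨n, rfl⟩; exact ⟨n, by rw [smul_eq_mul, mul_comm]⟩
  have hgo : g ∣ (o : ℤ) := (hmemE _).mp hoE
  have hg1 : g.natAbs = 1 := by
    by_contra hne
    obtain ⟨p, hp, hpg⟩ := Nat.exists_prime_and_dvd hne
    have hpo : p ∣ o := by
      have : (g.natAbs : ℤ) ∣ (o : ℤ) := Int.natAbs_dvd.mpr hgo
      exact dvd_trans hpg (Int.natCast_dvd_natCast.mp this)
    obtain ⟨j, hpj, hjE⟩ := hidx p hp hpo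
    have h3 : g ∣ (j : ℤ) := (hmemE _).mp hjE
    have h4 : (g.natAbs : ℤ) ∣ (j : ℤ) := Int.natAbs_dvd.mpr h3
    exact hpj (dvd_trans hpg (Int.natCast_dvd_natCast.mp h4))
  have h1E : (1 : ℤ) ∈ E := by
    rw [hmemE]
    exact (Int.isUnit_iff_natAbs_eq.mpr hg1).dvd
  obtain ⟨μ, hμ⟩ := h1E
  exact ⟨μ, fun m => by rw [hμ, zpow_one]⟩

/-- An invariant linear character of a normal subgroup with cyclic quotient extends. -/
theorem linear_extends_of_cyclic
    (hinv : ∀ (g : Γ) (m : M), lam₀ ⟨g * m * g⁻¹, hM.conj_mem m m.2 g⟩ = lam₀ m) (g : Γ)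
    (hg : ∀ a : Γ, ∃ i : ℕ, ∃ x ∈ M, a = g ^ i * x) :
    ∃ μ : Γ →* ℂˣ, ∀ m : M, μ m = lam₀ m := by
  classical
  letI := Fintype.ofFinite Γ
  letI : Fintype M := Fintype.ofFinite M
  set θ : M → ℂ := fun m => (lam₀ m : ℂ) with hθ
  have hθirr : IsIrrCharacter M θ := isIrrCharacter_of_hom lam₀
  have hind : IsCharacter Γ (indFun M θ) :=
    isCharacter_indFun M (isCharacter_of_isIrrCharacter hθirr)
  have hind1 : indFun M θ 1 ≠ 0 := by
    rw [indFun_one]
    exact mul_ne_zero (by exact_mod_cast Subgroup.index_ne_zero_of_finite)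
      (isIrrCharacter_one_ne_zero hθirr)
  obtain ⟨χ, hχ⟩ := exists_irr_constituent hind hind1
  have hcf := isClassFunction_irr χ
  have hcon : classInner (fun m : M => (χ : Γ → ℂ) m) θ ≠ 0 := by
    rw [frobenius_reciprocity M θ χ hcf, classInner_conj_symm] at hχ
    intro h0; apply hχ; rw [h0]; simp
  have hcl := clifford M χ.2 hθirr hcon
  have hO : conjFinset M θ = {θ} := by
    ext φ
    rw [mem_conjFinset, Finset.mem_singleton]
    constructor
    · rintro ⟨t, rfl⟩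
      funext m
      exact congrArg (fun u : ℂˣ => (u : ℂ)) (hinv t m)
    · intro h; exact ⟨1, by rw [h, twist_one]⟩
  rw [hO, Finset.sum_singleton] at hcl
  obtain ⟨n, ρ, hρirr, hρ⟩ := χ.2
  haveI := hρirr
  set e := classInner (fun m : M => (χ : Γ → ℂ) m) θ with he
  have hχm : ∀ m : M, ρ.character (m : Γ) = e * (lam₀ m : ℂ) := by
    intro m; rw [hρ]; exact congrFun hcl m
  have he1 : e = (n : ℂ) := by
    have := hχm 1
    rw [Subgroup.coe_one, Representation.char_one, map_one, Units.val_one, mul_one] at this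
    rw [← this]; simp
  have hscM : ∀ m : M, ∃ c : ℂ, ρ (m : Γ) = c • LinearMap.id := by
    intro m
    apply (norm_char_eq_finrank_iff ρ (m : Γ)).mp
    rw [hχm, he1, norm_mul, Complex.norm_natCast]
    have h2 : ‖(lam₀ m : ℂ)‖ = 1 := by
      have h1 : (lam₀ m : ℂ) ^ (Nat.card M) = 1 := by
        rw [← Units.val_pow_eq_pow_val, ← map_pow, pow_card_eq_one', map_one, Units.val_one]
      exact Complex.norm_eq_one_of_pow_eq_one h1 Nat.card_pos.ne'
    rw [h2, mul_one]; simp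
  have hcomm : ∀ a b : Γ, ρ a * ρ b = ρ b * ρ a := by
    intro a b
    obtain ⟨i, x, hx, rfl⟩ := hg a
    obtain ⟨j, y, hy, rfl⟩ := hg b
    obtain ⟨c, hc⟩ := hscM ⟨x, hx⟩
    obtain ⟨c', hc'⟩ := hscM ⟨y, hy⟩
    have h1 : ρ (g ^ i * x) = c • (ρ g) ^ i := by
      rw [map_mul, map_pow, show ρ x = c • LinearMap.id from hc]
      ext v; simp
    have h2 : ρ (g ^ j * y) = c' • (ρ g) ^ j := by
      rw [map_mul, map_pow, show ρ y = c' • LinearMap.id from hc']
      ext v; simp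
    rw [h1, h2, smul_mul_smul_comm, smul_mul_smul_comm, ← pow_add, ← pow_add, mul_comm c c',
      add_comm i j]
  have hsc : ∀ a : Γ, ∃ c : ℂ, ρ a = c • LinearMap.id := by
    intro a
    apply schur_scalar ρ (ρ a)
    intro b v
    have := congrArg (fun f : Module.End ℂ (Fin n → ℂ) => f v) (hcomm a b)
    exact this
  have hn1 : n = 1 := by
    have := finrank_eq_one_of_forall_scalar ρ hsc
    simpa using this
  have hχ1 : (χ : Γ → ℂ) 1 = 1 := by
    rw [← hρ, Representation.char_one]; simp [hn1]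
  obtain ⟨μ, hμ⟩ := exists_hom_of_linear χ.2 hχ1
  refine ⟨μ, fun m => ?_⟩
  apply Units.ext
  rw [← hμ, ← hρ, hχm, he1, hn1]; simp

end LinExt

end Cfsg.Agent.Lib.Lead
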