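import Mathlib
import Cfsg.Agent.Lib.Lead.CharExtFrame
import Cfsg.Agent.Lib.Lead.CharLinExt

set_option autoImplicit false

namespace Cfsg.Agent.Lib.Lead

open Module Cfsg.Agent.Lib.Helper2

section Frame2

variable {G : Type*} [Group G] [Finite G] (N : Subgroup G) [hN : N.Normal] {d : ℕ}
  (R : Representation ℂ N (Fin d → ℂ)) [hR : R.IsIrreducible]

/-- A linear character of the preimage of `N` cancelling the scalars is invariant. -/
theorem pe_lam_invariant (hd : 0 < d) (lam₀ : (N.comap (peFst N R)) →* ℂˣ)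
    (hlam₀ : ∀ (γ : N.comap (peFst N R)) (hγ : peFst N R γ ∈ N),
      (lam₀ γ : ℂ) • peRep N R γ = R ⟨peFst N R γ, hγ⟩)
    (hMn : (N.comap (peFst N R)).Normal) (g : projExt N R (Nat.card G))
    (m : N.comap (peFst N R)) :
    lam₀ ⟨g * m * g⁻¹, hMn.conj_mem m m.2 g⟩ = lam₀ m := by
  apply Units.ext
  apply smul_peRep_cancel N R hd (g * m * g⁻¹)
  have h1 := hlam₀ ⟨g * m * g⁻¹, hMn.conj_mem m m.2 g⟩ (hMn.conj_mem m m.2 g)
  have h2 := hlam₀ m m.2
  have e1 : peRep N R (g * m * g⁻¹) = peRep N R g * peRep N R m * peRep N R g⁻¹ := by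
    rw [map_mul, map_mul]
  have e2 : peRep N R g * peRep N R g⁻¹ = 1 := by rw [← map_mul, mul_inv_cancel, map_one]
  have e3 : (⟨peFst N R (g * m * g⁻¹), hMn.conj_mem m m.2 g⟩ : N) =
      MulAut.conjNormal (peFst N R g) ⟨peFst N R m, m.2⟩ := by
    apply Subtype.ext
    rw [MulAut.conjNormal_apply]
    show peFst N R (g * (m : projExt N R (Nat.card G)) * g⁻¹) =
      peFst N R g * peFst N R (m : projExt N R (Nat.card G)) * (peFst N R g)⁻¹
    rw [map_mul, map_mul, map_inv]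
  refine h1.trans ?_
  rw [e3]
  symm
  calc (lam₀ m : ℂ) • peRep N R (g * m * g⁻¹)
      = peRep N R g * ((lam₀ m : ℂ) • peRep N R m) * peRep N R g⁻¹ := by
        rw [e1, mul_smul_comm, smul_mul_assoc]
    _ = peRep N R g * R ⟨peFst N R m, m.2⟩ * peRep N R g⁻¹ := by rw [h2]
    _ = R (MulAut.conjNormal (peFst N R g) ⟨peFst N R m, m.2⟩) * peRep N R g *
          peRep N R g⁻¹ := by rw [peRep_conj]
    _ = R (MulAut.conjNormal (peFst N R g) ⟨peFst N R m, m.2⟩) := by
        rw [mul_assoc, e2, mul_one]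

/-- The extension problem for an invariant irreducible character reduces to an extension
problem for an invariant linear character of a normal subgroup of the finite central extension. -/
theorem exists_extension_of_frame
    (hinv : ∀ (t : G) (n : N), R.character ⟨t * n * t⁻¹, hN.conj_mem n n.2 t⟩ = R.character n)
    (h : ∀ (hMn : (N.comap (peFst N R)).Normal) (lam₀ : (N.comap (peFst N R)) →* ℂˣ),
      (∀ (g : projExt N R (Nat.card G)) (m : N.comap (peFst N R)),
        lam₀ ⟨g * m * g⁻¹, hMn.conj_mem m m.2 g⟩ = lam₀ m) →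
      (∀ (γ : N.comap (peFst N R)) (hγ : peFst N R γ ∈ N),
        (lam₀ γ : ℂ) • peRep N R γ = R ⟨peFst N R γ, hγ⟩) →
      ∃ μ : projExt N R (Nat.card G) →* ℂˣ, ∀ m : N.comap (peFst N R), μ m = lam₀ m) :
    ∃ χ : G → ℂ, IsIrrCharacter G χ ∧ ∀ n : N, χ n = R.character n := by
  classical
  have hd : 0 < d := by simpa using finrank_pos_of_irreducible R
  obtain ⟨lam₀, hlam₀⟩ := exists_hom_of_extension N R hinv N le_rfl (η := R.character)
    ⟨d, R, hR, rfl⟩ (fun n => rfl)
  have hMn : (N.comap (peFst N R)).Normal := inferInstance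
  obtain ⟨μ, hμ⟩ := h hMn lam₀ (pe_lam_invariant N R hd lam₀ hlam₀ hMn) hlam₀
  exact exists_extension_of_hom N R hinv μ (fun γ hγ => by
    rw [show μ γ = lam₀ ⟨γ, hγ⟩ from hμ ⟨γ, hγ⟩]
    exact hlam₀ ⟨γ, hγ⟩ hγ)

end Frame2

end Cfsg.Agent.Lib.Lead
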