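import Mathlib
import Cfsg.Agent.Lib.Lead.QuatSyl3
import Cfsg.Agent.Lib.Lead.CharClassMul
import Cfsg.Agent.Lib.Lead.CharKerSub
import Cfsg.Agent.Lib.Lead.CharLin

set_option autoImplicit false
set_option maxHeartbeats 1600000

namespace Cfsg.Agent.Lib.Lead

open Cfsg
open Cfsg.Agent.Lib.Helper2 (irr_one_ne_zero)
open scoped ComplexConjugate

universe u

/-- A generalized quaternion group has a unique involution. -/
theorem qs_unique_involution {G : Type u} [Group G] [Finite G] (S : Sylow 2 G) (n : ℕ)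
    (e : (S : Subgroup G) ≃* QuaternionGroup (2 ^ (n + 2))) {a b : G}
    (ha : a ∈ (S : Subgroup G)) (hb : b ∈ (S : Subgroup G)) (hao : orderOf a = 2)
    (hbo : orderOf b = 2) : a = b := by
  obtain ⟨x, hxS, hxo, -, hSx, -⟩ := qs_structure (S : Subgroup G) n e
  have hax : a ∈ Subgroup.zpowers x := by
    rcases hSx a ha with h | ⟨-, h⟩
    · exact h
    · omega
  have hbx : b ∈ Subgroup.zpowers x := by
    rcases hSx b hb with h | ⟨-, h⟩
    · exact h
    · omega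
  have h1 : b ∈ Subgroup.zpowers a :=
    cyc_mem_zpowers_of_orderOf_dvd hax hbx (by rw [hao, hbo])
  obtain ⟨k, hk⟩ := Subgroup.mem_zpowers_iff.mp h1
  have h2 : a ^ (k % 2) = b := by
    rw [← hk]
    have := zpow_mod_orderOf a k
    rw [hao] at this
    exact_mod_cast this
  rcases Int.emod_two_eq_zero_or_one k with h | h
  · rw [h, zpow_zero] at h2
    rw [← h2, orderOf_one] at hbo
    omega
  · rw [h, zpow_one] at h2
    exact h2

open scoped Pointwise in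
/-- Commuting involutions coincide in a group with generalized quaternion Sylow `2`-subgroups. -/
theorem qs_comm_involutions {G : Type u} [Group G] [Finite G] (S : Sylow 2 G) (n : ℕ)
    (e : (S : Subgroup G) ≃* QuaternionGroup (2 ^ (n + 2))) {a b : G} (hao : orderOf a = 2)
    (hbo : orderOf b = 2) (hab : a * b = b * a) : a = b := by
  haveI : Fact (Nat.Prime 2) := ⟨Nat.prime_two⟩
  have hc : Commute a b := hab
  have ha2 : a ^ 2 = 1 := by rw [← hao]; exact pow_orderOf_eq_one a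
  have hb2 : b ^ 2 = 1 := by rw [← hbo]; exact pow_orderOf_eq_one b
  obtain ⟨R, haR, hbR, hR⟩ : ∃ R : Subgroup G, a ∈ R ∧ b ∈ R ∧ IsPGroup 2 R := by
    refine ⟨{ carrier := {g | ∃ i j : ℤ, g = a ^ i * b ^ j}
              one_mem' := ⟨0, 0, by simp⟩
              mul_mem' := ?_
              inv_mem' := ?_ }, ⟨1, 0, by simp⟩, ⟨0, 1, by simp⟩, ?_⟩
    · rintro _ _ ⟨i, j, rfl⟩ ⟨i', j', rfl⟩
      refine ⟨i + i', j + j', ?_⟩
      calc a ^ i * b ^ j * (a ^ i' * b ^ j') = a ^ i * (b ^ j * a ^ i') * b ^ j' := by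
            simp only [mul_assoc]
        _ = a ^ i * (a ^ i' * b ^ j) * b ^ j' := by rw [(hc.zpow_zpow i' j).eq]
        _ = a ^ (i + i') * b ^ (j + j') := by
            rw [zpow_add, zpow_add]; simp only [mul_assoc]
    · rintro _ ⟨i, j, rfl⟩
      refine ⟨-i, -j, ?_⟩
      rw [mul_inv_rev, ← zpow_neg, ← zpow_neg, (hc.zpow_zpow (-i) (-j)).eq]
    · rintro ⟨g, i, j, rfl⟩
      refine ⟨1, ?_⟩
      apply Subtype.ext
      show (a ^ i * b ^ j) ^ (2 ^ 1) = 1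
      have hpow : ∀ (c : G) (i : ℤ), c ^ 2 = 1 → (c ^ i) ^ 2 = 1 := by
        intro c i hc2
        rw [← zpow_natCast, ← zpow_mul, mul_comm, zpow_mul, zpow_natCast, hc2, one_zpow]
      rw [pow_one, (hc.zpow_zpow i j).mul_pow, hpow a i ha2, hpow b j hb2, one_mul]
  obtain ⟨Q, hQ⟩ := hR.exists_le_sylow
  obtain ⟨g, hg⟩ := MulAction.exists_smul_eq G Q S
  have h1 : ∀ y ∈ R, g * y * g⁻¹ ∈ (S : Subgroup G) := by
    intro y hy
    have h0 : MulAut.conj g • y ∈ MulAut.conj g • (Q : Subgroup G) :=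
      Subgroup.smul_mem_pointwise_smul _ _ _ (hQ hy)
    have h2 : g * y * g⁻¹ ∈ (g • Q : Sylow 2 G) := by
      rw [Sylow.smul_def]
      exact h0
    rw [hg] at h2
    exact h2
  have h2 := qs_unique_involution S n e (h1 a haR) (h1 b hbR) (by rw [conj_orderOf, hao])
    (by rw [conj_orderOf, hbo])
  exact mul_left_cancel (mul_right_cancel h2)

/-- The product of two involutions never has order divisible by four. -/
theorem qs_no_prod {G : Type u} [Group G] [Finite G] (S : Sylow 2 G) (n : ℕ)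
    (e : (S : Subgroup G) ≃* QuaternionGroup (2 ^ (n + 2))) {t₁ t₂ : G}
    (h₁ : orderOf t₁ = 2) (h₂ : orderOf t₂ = 2) (h4 : 4 ∣ orderOf (t₁ * t₂)) : False := by
  obtain ⟨k, hk⟩ := h4
  obtain ⟨g, hg⟩ : ∃ g : G, g = t₁ * t₂ := ⟨_, rfl⟩
  rw [← hg] at hk
  have ht₁ : t₁ * t₁ = 1 := by
    have := pow_orderOf_eq_one t₁; rw [h₁, sq] at this; exact this
  have ht₂ : t₂ * t₂ = 1 := by
    have := pow_orderOf_eq_one t₂; rw [h₂, sq] at this; exact this
  have ht₁inv : t₁⁻¹ = t₁ := inv_eq_of_mul_eq_one_left ht₁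
  have ht₂inv : t₂⁻¹ = t₂ := inv_eq_of_mul_eq_one_left ht₂
  have hginv : t₁ * g * t₁⁻¹ = g⁻¹ := by
    rw [hg, mul_inv_rev, ht₁inv, ht₂inv, ← mul_assoc, ht₁, one_mul]
  have hk0 : 0 < k := by
    rcases Nat.eq_zero_or_pos k with h | h
    · rw [h, mul_zero] at hk
      exact absurd hk (orderOf_pos g).ne'
    · exact h
  obtain ⟨z, hz⟩ : ∃ z : G, z = g ^ (2 * k) := ⟨_, rfl⟩
  have hzo : orderOf z = 2 := by
    rw [hz, orderOf_pow, hk]
    have e1 : Nat.gcd (4 * k) (2 * k) = 2 * k := Nat.gcd_eq_right ⟨2, by ring⟩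
    rw [e1]
    have e2 : 4 * k = 2 * (2 * k) := by ring
    rw [e2]
    exact Nat.mul_div_cancel _ (by omega)
  have hzz : z * z = 1 := by
    have := pow_orderOf_eq_one z; rw [hzo, sq] at this; exact this
  have hzinv : z⁻¹ = z := inv_eq_of_mul_eq_one_left hzz
  have hconj : t₁ * z * t₁⁻¹ = z := by
    rw [hz, ← conj_pow, hginv, inv_pow, ← hz, hzinv]
  have hcomm : t₁ * z = z * t₁ := by
    calc t₁ * z = (t₁ * z * t₁⁻¹) * t₁ := by group
      _ = z * t₁ := by rw [hconj]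
  have heq : t₁ = z := qs_comm_involutions S n e h₁ hzo hcomm
  have hcg : t₁ * g * t₁⁻¹ = g := by
    rw [heq, hz]
    group
  rw [hginv] at hcg
  have hgg : g ^ 2 = 1 := by
    rw [sq]
    nth_rewrite 1 [← hcg]
    exact inv_mul_cancel g
  have h5 := orderOf_dvd_of_pow_eq_one hgg
  rw [hk] at h5
  have h6 := Nat.le_of_dvd (by norm_num) h5
  omega

theorem sum_irr_ite {G : Type u} [Group G] [Fintype (IrrCharacter G)] (f : IrrCharacter G → ℂ)
    (ψ : G → ℂ) (hψ : IsIrrCharacter G ψ) [∀ χ : IrrCharacter G, Decidable (ψ = (χ : G → ℂ))] :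
    ∑ χ : IrrCharacter G, f χ * (if ψ = (χ : G → ℂ) then 1 else 0) = f ⟨ψ, hψ⟩ := by
  rw [Finset.sum_eq_single (⟨ψ, hψ⟩ : IrrCharacter G)]
  · rw [if_pos rfl, mul_one]
  · intro b _ hb
    rw [if_neg, mul_zero]
    intro h; exact hb (Subtype.ext h.symm)
  · intro h; exact absurd (Finset.mem_univ _) h

open scoped Classical in
/-- Every involution lies in the kernels of the two exceptional characters. -/
theorem qs_invol_ker {G : Type u} [Group G] [Fintype G] (S : Sylow 2 G) (n : ℕ)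
    (e : (S : Subgroup G) ≃* QuaternionGroup (2 ^ (n + 2))) (χ₁ χ₂ : G → ℂ)
    (h₁ : IsIrrCharacter G χ₁) (h₂ : IsIrrCharacter G χ₂) (hdeg : χ₁ 1 = χ₂ 1 + 1)
    (hval : ∀ g : G, ¬ 4 ∣ orderOf g → χ₁ g - χ₂ g = 1) (τ : G) (hτ : orderOf τ = 2) :
    χ₁ τ = χ₁ 1 ∧ χ₂ τ = χ₂ 1 := by
  have : Finite (IrrCharacter G) := irr_finite
  letI : Fintype (IrrCharacter G) := Fintype.ofFinite _
  obtain ⟨Θ, hΘ⟩ : ∃ Θ : G → ℂ, Θ = (fun _ => (1 : ℂ)) - χ₁ + χ₂ := ⟨_, rfl⟩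
  have hG0 : (Nat.card G : ℂ) ≠ 0 := by
    exact_mod_cast (Nat.card_pos (α := G)).ne'
  have hcl0 : (Nat.card {x : G // IsConj τ x} : ℂ) ≠ 0 := by
    haveI : Nonempty {x : G // IsConj τ x} := ⟨⟨τ, IsConj.refl τ⟩⟩
    exact_mod_cast (Nat.card_pos (α := {x : G // IsConj τ x})).ne'
  obtain ⟨F, hF⟩ : ∃ F : IrrCharacter G → ℂ,
      F = fun χ : IrrCharacter G => (χ : G → ℂ) τ * (χ : G → ℂ) τ / (χ : G → ℂ) 1 := ⟨_, rfl⟩
  have hΦ : ∀ c : G, Θ c * ∑ χ : IrrCharacter G,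
      (χ : G → ℂ) τ * (χ : G → ℂ) τ * conj ((χ : G → ℂ) c) / (χ : G → ℂ) 1 = 0 := by
    intro c
    by_cases h4 : 4 ∣ orderOf c
    · have h5 := card_class_mul_eq' τ τ c
      have hempty : IsEmpty {p : G × G // IsConj τ p.1 ∧ IsConj τ p.2 ∧ p.1 * p.2 = c} := by
        constructor
        rintro ⟨p, hp1, hp2, hp3⟩
        obtain ⟨g1, hg1⟩ := isConj_iff.mp hp1
        obtain ⟨g2, hg2⟩ := isConj_iff.mp hp2
        have ho1 : orderOf p.1 = 2 := by rw [← hg1, conj_orderOf, hτ]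
        have ho2 : orderOf p.2 = 2 := by rw [← hg2, conj_orderOf, hτ]
        exact qs_no_prod S n e ho1 ho2 (by rw [hp3]; exact h4)
      rw [Nat.card_of_isEmpty, Nat.cast_zero] at h5
      have hcoef : (Nat.card {x : G // IsConj τ x} : ℂ) * (Nat.card {x : G // IsConj τ x} : ℂ) /
          (Nat.card G : ℂ) ≠ 0 := div_ne_zero (mul_ne_zero hcl0 hcl0) hG0
      have h6 := (mul_eq_zero.mp h5.symm).resolve_left hcoef
      rw [h6, mul_zero]
    · have h5 := hval c h4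
      have h7 : Θ c = 0 := by
        rw [hΘ]
        simp only [Pi.add_apply, Pi.sub_apply]
        linear_combination -h5
      rw [h7, zero_mul]
  have hsum : ∑ c : G, Θ c * ∑ χ : IrrCharacter G,
      (χ : G → ℂ) τ * (χ : G → ℂ) τ * conj ((χ : G → ℂ) c) / (χ : G → ℂ) 1 = 0 :=
    Finset.sum_eq_zero (fun c _ => hΦ c)
  have hswap : ∑ c : G, Θ c * ∑ χ : IrrCharacter G,
      (χ : G → ℂ) τ * (χ : G → ℂ) τ * conj ((χ : G → ℂ) c) / (χ : G → ℂ) 1 =
      ∑ χ : IrrCharacter G, F χ * ((Nat.card G : ℂ) * classInner Θ (χ : G → ℂ)) := by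
    simp only [Finset.mul_sum]
    rw [Finset.sum_comm]
    apply Finset.sum_congr rfl
    intro χ _
    unfold classInner
    rw [← mul_assoc (Nat.card G : ℂ), mul_inv_cancel₀ hG0, one_mul, Finset.mul_sum, hF]
    apply Finset.sum_congr rfl
    intro c _
    ring
  have hinner : ∀ χ : IrrCharacter G, classInner Θ (χ : G → ℂ) =
      (if (fun _ => (1 : ℂ)) = (χ : G → ℂ) then 1 else 0) -
        (if χ₁ = (χ : G → ℂ) then 1 else 0) + (if χ₂ = (χ : G → ℂ) then 1 else 0) := by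
    intro χ
    rw [hΘ, classInner_add_left, classInner_sub_left,
      irr_orthonormal (isIrrCharacter_one G) χ.2, irr_orthonormal h₁ χ.2,
      irr_orthonormal h₂ χ.2]
  rw [hswap] at hsum
  have hsplit : ∀ χ : IrrCharacter G, F χ * ((Nat.card G : ℂ) * classInner Θ (χ : G → ℂ)) =
      (Nat.card G : ℂ) * (F χ * (if (fun _ => (1 : ℂ)) = (χ : G → ℂ) then 1 else 0)) -
      (Nat.card G : ℂ) * (F χ * (if χ₁ = (χ : G → ℂ) then 1 else 0)) +
      (Nat.card G : ℂ) * (F χ * (if χ₂ = (χ : G → ℂ) then 1 else 0)) := by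
    intro χ
    rw [hinner χ]; ring
  rw [Finset.sum_congr rfl (fun χ _ => hsplit χ), Finset.sum_add_distrib, Finset.sum_sub_distrib,
    ← Finset.mul_sum, ← Finset.mul_sum, ← Finset.mul_sum, sum_irr_ite F _ (isIrrCharacter_one G),
    sum_irr_ite F _ h₁, sum_irr_ite F _ h₂] at hsum
  rw [hF] at hsum
  have hd0 : χ₂ 1 ≠ 0 := irr_one_ne_zero h₂
  have hd1 : χ₂ 1 + 1 ≠ 0 := by rw [← hdeg]; exact irr_one_ne_zero h₁
  have hτ1 : χ₁ τ = χ₂ τ + 1 := by
    have := hval τ (by rw [hτ]; norm_num)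
    linear_combination this
  have h8 : 1 - (χ₂ τ + 1) * (χ₂ τ + 1) / (χ₂ 1 + 1) + χ₂ τ * χ₂ τ / χ₂ 1 = 0 := by
    have h9 : (Nat.card G : ℂ) * (1 - (χ₂ τ + 1) * (χ₂ τ + 1) / (χ₂ 1 + 1) +
        χ₂ τ * χ₂ τ / χ₂ 1) = 0 := by
      rw [← hsum]
      show _ = (Nat.card G : ℂ) * ((1 : ℂ) * 1 / 1) - (Nat.card G : ℂ) * (χ₁ τ * χ₁ τ / χ₁ 1) +
        (Nat.card G : ℂ) * (χ₂ τ * χ₂ τ / χ₂ 1)
      rw [hτ1, hdeg]
      ring
    exact (mul_eq_zero.mp h9).resolve_left hG0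
  have h9 : (χ₂ 1 - χ₂ τ) ^ 2 = 0 := by
    have e1 : (χ₂ 1 - χ₂ τ) ^ 2 = χ₂ 1 * (χ₂ 1 + 1) *
        (1 - (χ₂ τ + 1) * (χ₂ τ + 1) / (χ₂ 1 + 1) + χ₂ τ * χ₂ τ / χ₂ 1) := by
      field_simp
      ring
    rw [e1, h8, mul_zero]
  have h10 : χ₂ τ = χ₂ 1 := by
    have := pow_eq_zero_iff (two_ne_zero) |>.mp h9
    exact (sub_eq_zero.mp this).symm
  exact ⟨by rw [hτ1, hdeg, h10], h10⟩

/-- An irreducible character whose kernel contains the commutator subgroup is linear. -/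
theorem irr_linear_of_commutator_le {G : Type u} [Group G] [Finite G] {χ : G → ℂ}
    (hχ : IsIrrCharacter G χ) (h : ∀ g ∈ commutator G, χ g = χ 1) : χ 1 = 1 := by
  obtain ⟨n, ρ, hirr, rfl⟩ := hχ
  haveI := hirr
  have hN : ∀ x ∈ commutator G, ρ x = 1 := by
    intro x hx
    have := h x hx
    rw [Representation.char_one, char_eq_finrank_iff] at this
    exact this
  haveI := descendRep_isIrreducible ρ (commutator G) hN
  haveI : IsMulCommutative (G ⧸ commutator G) := by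
    refine ⟨⟨fun a b => ?_⟩⟩
    exact @mul_comm (Abelianization G) _ a b
  have h1 := Representation.IsIrreducible.finrank_eq_one_of_isMulCommutative
    (descendRep ρ (commutator G) hN)
  rw [Representation.char_one, h1]
  simp

/-- A normal subgroup of even order with non-abelian quotient. -/
theorem qs_even_normal {G : Type u} [Group G] [Finite G] (S : Sylow 2 G) (n : ℕ)
    (e : (S : Subgroup G) ≃* QuaternionGroup (2 ^ (n + 2))) :
    ∃ M : Subgroup G, M.Normal ∧ Even (Nat.card M) ∧ ¬ commutator G ≤ M := by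
  letI : Fintype G := Fintype.ofFinite G
  haveI : Fact (Nat.Prime 2) := ⟨Nat.prime_two⟩
  obtain ⟨χ₁, χ₂, h₁, h₂, -, -, hdeg, hval⟩ := qs_chars S n e
  obtain ⟨x, hxS, hxo, -⟩ := qs_structure (S : Subgroup G) n e
  have h2G : 2 ∣ Nat.card G := by
    have h1 : orderOf x ∣ Nat.card G := orderOf_dvd_natCard x
    rw [hxo] at h1
    exact (dvd_pow_self 2 (by omega)).trans h1
  obtain ⟨τ, hτ⟩ := exists_prime_orderOf_dvd_card' 2 h2G
  obtain ⟨hk1, hk2⟩ := qs_invol_ker S n e χ₁ χ₂ h₁ h₂ hdeg hval τ hτ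
  obtain ⟨M, hMn, hMmem, -⟩ := irr_ker_exists (⟨χ₁, h₁⟩ : IrrCharacter G)
  refine ⟨M, hMn, ?_, ?_⟩
  · have hτM : τ ∈ M := (hMmem τ).mpr hk1
    rw [even_iff_two_dvd, ← hτ, ← Subgroup.orderOf_mk τ hτM]
    exact orderOf_dvd_natCard _
  · intro hle
    have h1 : χ₁ 1 = 1 := irr_linear_of_commutator_le h₁ (fun g hg => (hMmem g).mp (hle hg))
    rw [hdeg] at h1
    exact irr_one_ne_zero h₂ (by linear_combination h1)

end Cfsg.Agent.Lib.Lead
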