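import Mathlib
import Cfsg.Agent.Lib.Lead.CharPMod2
import Cfsg.Agent.Lib.Lead.CharKerSub

set_option autoImplicit false
set_option maxHeartbeats 1600000

namespace Cfsg.Agent.Lib.Lead

open Cfsg Cfsg.Agent.Lib.Helper2 Cfsg.Agent.S0177
open scoped ComplexConjugate

universe u

/-- The image of the Hall projection of an elementary group has order dividing `n`. -/
theorem elem_proj_range_card {E : Type u} [Group E] [Finite E] (m n : ℕ) (hcop : Nat.Coprime m n)
    (hcard : Nat.card E ∣ m * n) (e : ℕ) (hem : e ≡ 0 [MOD m]) (π : E →* E)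
    (hπ : ∀ y, π y = y ^ e) : Nat.card π.range ∣ n := by
  have hme : m ∣ e := (Nat.modEq_zero_iff_dvd).mp hem
  have f1 : ∀ y : E, orderOf y ∣ m * n := fun y => dvd_trans (orderOf_dvd_natCard y) hcard
  have hBn : ∀ b : π.range, (b : E) ^ n = 1 := by
    rintro ⟨b, y, rfl⟩
    show (π y) ^ n = 1
    rw [hπ, ← pow_mul]
    exact orderOf_dvd_iff_pow_eq_one.mp (dvd_trans (f1 y) (Nat.mul_dvd_mul_right hme n))
  have h1 : Nat.card π.range ∣ m * n := dvd_trans (Subgroup.card_subgroup_dvd_card _) hcard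
  have h2 : Nat.Coprime (Nat.card π.range) m := by
    apply Nat.coprime_of_dvd
    intro k hk hkB hkm
    haveI : Fact k.Prime := ⟨hk⟩
    obtain ⟨b, hb⟩ := exists_prime_orderOf_dvd_card' k hkB
    have h3 : orderOf (b : E) = k := by rw [Subgroup.orderOf_coe]; exact hb
    have h4 : k ∣ n := by rw [← h3]; exact orderOf_dvd_of_pow_eq_one (hBn b)
    have := Nat.dvd_gcd hkm h4
    rw [hcop.gcd_eq_one] at this
    exact hk.one_lt.ne' (Nat.dvd_one.mp this)
  exact h2.dvd_of_dvd_mul_left h1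

/-- If elementary subgroups of order dividing `|H|` are conjugate into `H`, so is every element
of order dividing `|H|`. -/
theorem bs_cyclic_conj {G : Type u} [Group G] [Finite G] (H : Subgroup G)
    (helem : ∀ (E : Subgroup G) (p : ℕ), p.Prime → Cfsg.IsElementary p E →
      Nat.card E ∣ Nat.card H → ∃ g : G, E.map (MulAut.conj g).toMonoidHom ≤ H)
    (y : G) (hy : y ^ Nat.card H = 1) : ∃ g : G, g * y * g⁻¹ ∈ H := by
  obtain ⟨p, hple, hp⟩ := Nat.exists_infinite_primes (orderOf y + 1)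
  have hcop : Nat.Coprime (orderOf y) p := by
    rw [Nat.coprime_comm, Nat.Prime.coprime_iff_not_dvd hp]
    intro hdvd
    have := Nat.le_of_dvd (orderOf_pos y) hdvd
    omega
  have hE : IsElementary p (Subgroup.zpowers y) := by
    refine ⟨⟨y, Subgroup.mem_zpowers y⟩, ?_, ?_, 0, ?_⟩
    · rw [Subgroup.mem_center_iff]
      intro z
      apply Subtype.ext
      show (z : G) * y = y * (z : G)
      obtain ⟨k, hk⟩ := Subgroup.mem_zpowers_iff.mp z.2
      rw [← hk]
      exact ((Commute.refl y).zpow_left k).eq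
    · rw [Subgroup.orderOf_mk]; exact hcop
    · rw [pow_zero, Subgroup.index_eq_one, Subgroup.eq_top_iff']
      intro z
      obtain ⟨k, hk⟩ := Subgroup.mem_zpowers_iff.mp z.2
      exact Subgroup.mem_zpowers_iff.mpr ⟨k, Subtype.ext (by simpa using hk)⟩
  obtain ⟨g, hg⟩ := helem (Subgroup.zpowers y) p hp hE
    (by rw [Nat.card_zpowers]; exact orderOf_dvd_of_pow_eq_one hy)
  exact ⟨g, hg ⟨y, Subgroup.mem_zpowers y, rfl⟩⟩

/-- Each `t` has exactly `|H|` pairs `(h, c)` with `c h c⁻¹ = t`. -/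
theorem bs_D1 {H : Type u} [Group H] [Fintype H] (t : H) :
    ∑ h : H, Nat.card {c : H // c * h * c⁻¹ = t} = Nat.card H := by
  classical
  rw [← Nat.card_sigma]
  apply Nat.card_congr
  refine Equiv.ofBijective (fun s : (Σ h : H, {c : H // c * h * c⁻¹ = t}) => (s.2 : H)) ⟨?_, ?_⟩
  · rintro ⟨h, c, hc⟩ ⟨h', c', hc'⟩ heq
    simp only at heq
    subst heq
    have : h = h' := by
      have e1 : h = c⁻¹ * t * c := by rw [← hc]; group
      have e2 : h' = c⁻¹ * t * c := by rw [← hc']; group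
      rw [e1, e2]
    subst this
    rfl
  · intro c
    exact ⟨⟨c⁻¹ * t * c, c, by group⟩, rfl⟩

/-- The counting lemma behind the Brauer–Suzuki theorem. -/
theorem bs_count {G : Type u} [Group G] [Fintype G] (H : Subgroup G) [Fintype H] (τ : G → H)
    (h1 : ∀ θ : H → ℂ, IsCharacter H θ → IsGeneralizedCharacter G (fun x => θ (τ x)))
    (h2 : ∀ h : H, ∃ c : H, c * h * c⁻¹ = τ (h : G)) (h : H) :
    ∑ x : G, Nat.card {c : H // c * h * c⁻¹ = τ x} = Nat.card G := by
  classical
  haveI : Finite (IrrCharacter H) := irr_finite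
  letI : Fintype (IrrCharacter H) := Fintype.ofFinite _
  have hG0 : Nat.card G ≠ 0 := Nat.card_pos.ne'
  have hI : ∀ θ : IrrCharacter H, ∃ z : ℤ,
      (Nat.card G : ℂ)⁻¹ * ∑ x : G, (θ : H → ℂ) (τ x) = (z : ℂ) := by
    intro θ
    obtain ⟨χ1, χ2, hc1, hc2, heq⟩ := h1 θ (isCharacter_of_isIrrCharacter θ.2)
    obtain ⟨n1, hn1⟩ := classInner_isCharacter_nat hc1 (isCharacter_one (G := G))
    obtain ⟨n2, hn2⟩ := classInner_isCharacter_nat hc2 (isCharacter_one (G := G))
    refine ⟨(n1 : ℤ) - n2, ?_⟩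
    have h3 : classInner (fun x => (θ : H → ℂ) (τ x)) (fun _ : G => (1 : ℂ)) =
        (n1 : ℂ) - n2 := by
      rw [heq, classInner_sub_left, hn1, hn2]
    push_cast
    rw [← h3]
    unfold classInner
    simp
  choose z hz using hI
  have hdvd : ∀ h : H, Nat.card G ∣ ∑ x : G, Nat.card {c : H // c * h * c⁻¹ = τ x} := by
    intro h
    apply nat_dvd_of_isIntegral_div hG0
    have key : ((∑ x : G, Nat.card {c : H // c * h * c⁻¹ = τ x} : ℕ) : ℂ) / (Nat.card G : ℂ) =
        ∑ θ : IrrCharacter H, conj ((θ : H → ℂ) h) * (z θ : ℂ) := by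
      have h4 : ∀ x : G, ((Nat.card {c : H // c * h * c⁻¹ = τ x} : ℕ) : ℂ) =
          ∑ θ : IrrCharacter H, (θ : H → ℂ) (τ x) * conj ((θ : H → ℂ) h) :=
        fun x => (second_orthogonality_raw (τ x) h).symm
      rw [div_eq_inv_mul, Nat.cast_sum]
      simp_rw [h4, ← hz]
      rw [Finset.mul_sum]
      have h5 : ∀ θ : IrrCharacter H, conj ((θ : H → ℂ) h) *
          ((Nat.card G : ℂ)⁻¹ * ∑ x : G, (θ : H → ℂ) (τ x)) =
          ∑ x : G, (Nat.card G : ℂ)⁻¹ * ((θ : H → ℂ) (τ x) * conj ((θ : H → ℂ) h)) := by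
        intro θ
        rw [Finset.mul_sum, Finset.mul_sum]
        apply Finset.sum_congr rfl
        intro x _
        ring
      simp_rw [h5]
      rw [Finset.sum_comm]
      apply Finset.sum_congr rfl
      intro x _
      rw [Finset.mul_sum]
    rw [key]
    apply IsIntegral.sum
    intro θ _
    apply IsIntegral.mul
    · rw [← isCharacter_inv_eq_conj (isCharacter_of_isIrrCharacter θ.2)]
      exact isCharacter_isIntegral (isCharacter_of_isIrrCharacter θ.2) _
    · exact isIntegral_intCast_complex (z θ)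
  have hpos : ∀ h : H, 0 < ∑ x : G, Nat.card {c : H // c * h * c⁻¹ = τ x} := by
    intro h
    obtain ⟨c, hc⟩ := h2 h
    have h3 : 0 < Nat.card {c : H // c * h * c⁻¹ = τ (h : G)} :=
      Nat.card_pos_iff.mpr ⟨⟨⟨c, hc⟩⟩, inferInstance⟩
    exact lt_of_lt_of_le h3 (Finset.single_le_sum
      (f := fun x : G => Nat.card {c : H // c * h * c⁻¹ = τ x})
      (fun _ _ => Nat.zero_le _) (Finset.mem_univ (h : G)))
  have hge : ∀ h : H, Nat.card G ≤ ∑ x : G, Nat.card {c : H // c * h * c⁻¹ = τ x} :=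
    fun h => Nat.le_of_dvd (hpos h) (hdvd h)
  have htot : ∑ h : H, ∑ x : G, Nat.card {c : H // c * h * c⁻¹ = τ x} =
      ∑ _h : H, Nat.card G := by
    rw [Finset.sum_comm]
    simp_rw [bs_D1]
    simp only [Finset.sum_const, Finset.card_univ, smul_eq_mul, Nat.card_eq_fintype_card]
    rw [mul_comm]
  have h6 := (Finset.sum_eq_sum_iff_of_le (fun h _ => hge h)).mp htot.symm
  exact (h6 h (Finset.mem_univ h)).symm

/-- Averaging a class function of `H` along `τ`. -/
theorem bs_sum_tau {G : Type u} [Group G] [Fintype G] (H : Subgroup G) [Fintype H] (τ : G → H)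
    (hN : ∀ h : H, ∑ x : G, Nat.card {c : H // c * h * c⁻¹ = τ x} = Nat.card G)
    (f : H → ℂ) (hf : IsClassFunction H f) :
    (Nat.card H : ℂ) * ∑ x : G, f (τ x) = (Nat.card G : ℂ) * ∑ h : H, f h := by
  classical
  have e1 : ∀ t : H, (Nat.card H : ℂ) * f t =
      ∑ h : H, f h * (Nat.card {c : H // c * h * c⁻¹ = t} : ℂ) := by
    intro t
    have h3 : ∀ h : H, f h * (Nat.card {c : H // c * h * c⁻¹ = t} : ℂ) =
        f t * (Nat.card {c : H // c * h * c⁻¹ = t} : ℂ) := by
      intro h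
      by_cases h0 : Nat.card {c : H // c * h * c⁻¹ = t} = 0
      · rw [h0]; simp
      · obtain ⟨⟨c, hc⟩⟩ := (Nat.card_pos_iff.mp (Nat.pos_of_ne_zero h0)).1
        have : f t = f h := by rw [← hc]; exact hf h c
        rw [this]
    simp_rw [h3]
    rw [← Finset.mul_sum, ← Nat.cast_sum, bs_D1 t, mul_comm]
  rw [Finset.mul_sum]
  simp_rw [e1]
  rw [Finset.sum_comm]
  simp_rw [← Finset.mul_sum, ← Nat.cast_sum, hN]
  rw [← Finset.sum_mul, mul_comm]

/-- Brauer–Suzuki: a Hall subgroup controlling its own fusion, into which all elementary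
subgroups of suitable order can be conjugated, has a normal complement. -/
theorem brauer_suzuki_hall {G : Type u} [Group G] [Finite G] (H : Subgroup G)
    (hHall : Nat.Coprime (Nat.card H) H.index)
    (hfus : ∀ x ∈ H, ∀ y ∈ H, IsConj x y → ∃ h ∈ H, h * x * h⁻¹ = y)
    (helem : ∀ (E : Subgroup G) (p : ℕ), p.Prime → Cfsg.IsElementary p E →
      Nat.card E ∣ Nat.card H → ∃ g : G, E.map (MulAut.conj g).toMonoidHom ≤ H) :
    ∃ K : Subgroup G, K.Normal ∧ K ⊔ H = ⊤ ∧ K ⊓ H = ⊥ := by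
  classical
  letI : Fintype G := Fintype.ofFinite G
  letI : Fintype H := Fintype.ofFinite H
  haveI : Finite (IrrCharacter H) := irr_finite
  letI : Fintype (IrrCharacter H) := Fintype.ofFinite _
  obtain ⟨n, hn⟩ : ∃ n, n = Nat.card H := ⟨_, rfl⟩
  obtain ⟨m, hm⟩ : ∃ m, m = H.index := ⟨_, rfl⟩
  have hmn : Nat.card G = m * n := by
    rw [hm, hn, mul_comm]; exact (Subgroup.card_mul_index H).symm
  have hcop : Nat.Coprime m n := by rw [hm, hn]; exact hHall.symm
  have hmn0 : m * n ≠ 0 := by rw [← hmn]; exact Nat.card_pos.ne'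
  obtain ⟨e, hem, hen⟩ := Nat.chineseRemainder hcop 0 1
  have hme : m ∣ e := (Nat.modEq_zero_iff_dvd).mp hem
  have f1 : ∀ y : G, orderOf y ∣ m * n := fun y => hmn ▸ orderOf_dvd_natCard y
  have F1 : ∀ x : G, (x ^ e) ^ n = 1 := by
    intro x
    rw [← pow_mul]
    exact orderOf_dvd_iff_pow_eq_one.mp (dvd_trans (f1 x) (Nat.mul_dvd_mul_right hme n))
  have F2 : ∀ h ∈ H, h ^ e = h := by
    intro h hh
    have h1 : orderOf h ∣ n := by
      rw [hn]
      have := orderOf_dvd_natCard (⟨h, hh⟩ : H)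
      rwa [Subgroup.orderOf_mk] at this
    have : h ^ e = h ^ 1 := by rw [pow_eq_pow_iff_modEq]; exact hen.of_dvd h1
    rw [this, pow_one]
  have hτ : ∀ x : G, ∃ t : H, IsConj (t : G) (x ^ e) := by
    intro x
    obtain ⟨g, hg⟩ := bs_cyclic_conj H helem (x ^ e) (by rw [← hn]; exact F1 x)
    exact ⟨⟨g * x ^ e * g⁻¹, hg⟩, (isConj_iff.mpr ⟨g, rfl⟩).symm⟩
  choose τ hτ using hτ
  have T : ∀ (θ : H → ℂ), IsClassFunction H θ → ∀ (x : G) (t : H), IsConj (t : G) (x ^ e) →
      θ (τ x) = θ t := by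
    intro θ hθ x t ht
    obtain ⟨h, hh, heq⟩ := hfus (t : G) t.2 (τ x : G) (τ x).2 (ht.trans (hτ x).symm)
    have : τ x = ⟨h, hh⟩ * t * ⟨h, hh⟩⁻¹ := Subtype.ext heq.symm
    rw [this, hθ t ⟨h, hh⟩]
  have C3 : ∀ θ : H → ℂ, IsCharacter H θ → IsGeneralizedCharacter G (fun x => θ (τ x)) := by
    intro θ hθ
    have hθcl := isClassFunction_of_isCharacter hθ
    apply gc_of_res_elem
    · intro x g
      show θ (τ (g * x * g⁻¹)) = θ (τ x)
      apply T θ hθcl
      rw [conj_pow]
      exact (hτ x).trans (isConj_iff.mpr ⟨g, rfl⟩)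
    · intro E q hq hE
      apply gc_of_char
      have hcardE : Nat.card E ∣ m * n := hmn ▸ Subgroup.card_subgroup_dvd_card E
      obtain ⟨π, hπ⟩ := elem_exists_proj hq hE m n hcop hcardE hmn0 e hem hen
      have hB : Nat.card π.range ∣ n := elem_proj_range_card m n hcop hcardE e hem π hπ
      have hBel : IsElementary q (π.range.map E.subtype) :=
        isElementary_map_subtype (isElementary_subgroup hq hE π.range)
      have hBcard : Nat.card (π.range.map E.subtype) ∣ Nat.card H := by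
        rw [← hn, Subgroup.card_map_of_injective E.subtype_injective]
        exact hB
      obtain ⟨g, hg⟩ := helem _ q hq hBel hBcard
      have hmem : ∀ y : E, g * ((y : G) ^ e) * g⁻¹ ∈ H := by
        intro y
        apply hg
        refine ⟨((π y : E) : G), ⟨π y, ⟨y, rfl⟩, rfl⟩, ?_⟩
        rw [hπ]; rfl
      obtain ⟨ι, hι⟩ : ∃ ι : E →* H, ∀ y : E, ((ι y : H) : G) = g * ((y : G) ^ e) * g⁻¹ := by
        refine ⟨(((MulAut.conj g).toMonoidHom.comp E.subtype).comp π).codRestrict H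
          (fun y => ?_), fun y => ?_⟩
        · show g * ((π y : E) : G) * g⁻¹ ∈ H
          rw [hπ]; exact hmem y
        · show g * ((π y : E) : G) * g⁻¹ = _
          rw [hπ]; rfl
      have h3 : (fun y : E => θ (τ (y : G))) = θ ∘ ι := by
        funext y
        show θ (τ (y : G)) = θ (ι y)
        apply T θ hθcl
        rw [hι]
        exact (isConj_iff.mpr ⟨g, rfl⟩).symm
      show IsCharacter E (fun y : E => θ (τ (y : G)))
      rw [h3]
      exact isCharacter_comp ι hθ
  have H2 : ∀ h : H, ∃ c : H, c * h * c⁻¹ = τ (h : G) := by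
    intro h
    have h1 : IsConj (h : G) ((τ (h : G) : H) : G) := by
      have := hτ (h : G)
      rw [F2 (h : G) h.2] at this
      exact this.symm
    obtain ⟨c, hc, heq⟩ := hfus (h : G) h.2 _ (τ (h : G)).2 h1
    exact ⟨⟨c, hc⟩, Subtype.ext heq⟩
  have hN := fun h : H => bs_count H τ C3 H2 h
  have L := bs_sum_tau H τ hN
  have hτ1 : τ 1 = 1 := by
    have := hτ 1
    rw [one_pow] at this
    exact Subtype.ext (isConj_one_left.mp this)
  have hG : (Nat.card G : ℂ) ≠ 0 := by exact_mod_cast Nat.card_pos.ne'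
  have hH : (Nat.card H : ℂ) ≠ 0 := by exact_mod_cast Nat.card_pos.ne'
  have C7 : ∀ θ : IrrCharacter H, IsIrrCharacter G (fun x => (θ : H → ℂ) (τ x)) := by
    intro θ
    apply gc_norm_one_irr (C3 θ (isCharacter_of_isIrrCharacter θ.2))
    · have hf : IsClassFunction H (fun h => (θ : H → ℂ) h * conj ((θ : H → ℂ) h)) := by
        intro g h
        simp only [isClassFunction_irr θ g h]
      have hL := L _ hf
      have hnorm : classInner (θ : H → ℂ) (θ : H → ℂ) = 1 := by
        rw [irr_orthonormal θ.2 θ.2, if_pos rfl]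
      unfold classInner at hnorm ⊢
      have hSH : ∑ h : H, (θ : H → ℂ) h * conj ((θ : H → ℂ) h) = (Nat.card H : ℂ) := by
        have := congrArg (fun t => (Nat.card H : ℂ) * t) hnorm
        simp only [mul_one] at this
        rw [← this, ← mul_assoc, mul_inv_cancel₀ hH, one_mul]
      rw [hSH] at hL
      have hSG : ∑ x : G, (θ : H → ℂ) (τ x) * conj ((θ : H → ℂ) (τ x)) = (Nat.card G : ℂ) := by
        apply mul_left_cancel₀ hH; rw [hL]; ring
      rw [hSG, inv_mul_cancel₀ hG]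
    · show 0 < ((θ : H → ℂ) (τ 1)).re
      rw [hτ1, isIrrCharacter_one_eq_charDegree θ.2]
      have := charDegree_pos_of_irr θ.2
      simpa using this
  have hker : ∀ θ : IrrCharacter H, ∃ K : Subgroup G, K.Normal ∧
      ∀ g, g ∈ K ↔ (θ : H → ℂ) (τ g) = (θ : H → ℂ) 1 := by
    intro θ
    obtain ⟨K, hKn, hK, _⟩ := irr_ker_exists (⟨_, C7 θ⟩ : IrrCharacter G)
    refine ⟨K, hKn, fun g => ?_⟩
    rw [hK]
    show (θ : H → ℂ) (τ g) = (θ : H → ℂ) (τ 1) ↔ _
    rw [hτ1]
  choose Kθ hKn hKmem using hker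
  have hsep : ∀ t : H, (∀ θ : IrrCharacter H, (θ : H → ℂ) t = (θ : H → ℂ) 1) → t = 1 := by
    intro t ht
    have h1 := second_orthogonality_raw (G := H) t 1
    have h2 := second_orthogonality_raw (G := H) 1 1
    simp_rw [ht] at h1
    rw [h2] at h1
    have h3 : Nat.card {y : H // y * 1 * y⁻¹ = 1} = Nat.card {y : H // y * 1 * y⁻¹ = t} := by
      exact_mod_cast h1
    have h4 : 0 < Nat.card {y : H // y * 1 * y⁻¹ = 1} :=
      Nat.card_pos_iff.mpr ⟨⟨⟨1, by simp⟩⟩, inferInstance⟩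
    rw [h3] at h4
    obtain ⟨⟨y, hy⟩⟩ := (Nat.card_pos_iff.mp h4).1
    rw [← hy]; simp
  have hKiff : ∀ x : G, x ∈ (⨅ θ, Kθ θ) ↔ τ x = 1 := by
    intro x
    rw [Subgroup.mem_iInf]
    constructor
    · intro h; exact hsep _ (fun θ => (hKmem θ x).mp (h θ))
    · intro h θ; rw [hKmem, h]
  have hdisj : (⨅ θ, Kθ θ) ⊓ H = ⊥ := by
    rw [eq_bot_iff]
    rintro x ⟨hxK, hxH⟩
    have h1 := (hKiff x).mp hxK
    have h2 := hτ x
    rw [F2 x hxH, h1] at h2
    exact isConj_one_right.mp h2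
  have hcardK : Nat.card (⨅ θ, Kθ θ : Subgroup G) * Nat.card H = Nat.card G := by
    have hf : IsClassFunction H (fun h : H => if h = 1 then (1 : ℂ) else 0) := by
      intro g h
      have h3 : h * g * h⁻¹ = 1 ↔ g = 1 := by
        constructor
        · intro h'
          have : g = h⁻¹ * (h * g * h⁻¹) * h := by group
          rw [this, h']; group
        · intro h'; rw [h']; group
      simp only [h3]
    have hL := L _ hf
    have e1 : ∑ h : H, (if h = 1 then (1 : ℂ) else 0) = 1 := by simp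
    have e3 : Nat.card (⨅ θ, Kθ θ : Subgroup G) =
        (Finset.univ.filter (fun x : G => τ x = 1)).card := by
      rw [← Fintype.card_subtype, ← Nat.card_eq_fintype_card]
      exact Nat.card_congr (Equiv.subtypeEquivRight hKiff)
    have e2 : ∑ x : G, (if τ x = 1 then (1 : ℂ) else 0) =
        (Nat.card (⨅ θ, Kθ θ : Subgroup G) : ℂ) := by
      rw [Finset.sum_boole, e3]
    rw [e1, e2] at hL
    have h5 : ((Nat.card (⨅ θ, Kθ θ : Subgroup G) * Nat.card H : ℕ) : ℂ) = (Nat.card G : ℂ) := by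
      push_cast; linear_combination hL
    exact_mod_cast h5
  have hcompl := Subgroup.isComplement'_of_card_mul_and_disjoint hcardK (disjoint_iff.mpr hdisj)
  exact ⟨⨅ θ, Kθ θ, Subgroup.normal_iInf_normal hKn, hcompl.sup_eq_top, hdisj⟩

end Cfsg.Agent.Lib.Lead
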