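import Cfsg.Agent.Lib.Lead.CharAbQuot
import Cfsg.Agent.Lib.Lead.CharMGroup

set_option autoImplicit false
open Cfsg
open scoped ComplexConjugate
open Module

namespace Cfsg.Agent.Lib.Lead

open Cfsg.Agent.Lib.Helper2

section Chief

variable {K : Type*} [Group K] [Fintype K] (N : Subgroup K) [hN : N.Normal] [Fintype N]

/-- With `K/N` abelian, `Ind 1_N` is a multiplicity-free sum of linear characters trivial on
`N`. -/
theorem exists_linear_family (hab : ∀ x y : K, x * y * x⁻¹ * y⁻¹ ∈ N) :
    ∃ S : Finset (IrrCharacter K), indFun N (fun _ : N => (1 : ℂ)) = ∑ ξ ∈ S, (ξ : K → ℂ) ∧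
      (∀ ξ ∈ S, (∀ g, ‖(ξ : K → ℂ) g‖ = 1) ∧ (ξ : K → ℂ) 1 = 1 ∧
        ∀ n : N, (ξ : K → ℂ) n = 1) := by
  classical
  obtain ⟨e, S, he, hind, hdeg, hcard, hover⟩ :=
    abelian_quotient_ind N (isIrrCharacter_one N) (fun _ _ => rfl) hab
  have hsum : ∀ ξ ∈ S, ∑ n : N, (ξ : K → ℂ) n ≠ 0 := by
    intro ξ hξ h0
    apply hover ξ hξ
    unfold classInner
    simp only [map_one, mul_one]
    rw [h0, mul_zero]
  have hnorm : ∀ ξ ∈ S, ∀ g, ‖(ξ : K → ℂ) g‖ = 1 := fun ξ hξ =>
    norm_eq_one_of_over_one N hab ξ.2 (hsum ξ hξ)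
  have hSne : S.Nonempty := by
    rw [Finset.nonempty_iff_ne_empty]
    rintro rfl
    rw [Finset.card_empty, mul_zero, zero_mul] at hcard
    have := Nat.card_pos (α := K)
    omega
  have he1 : e = 1 := by
    obtain ⟨ξ, hξ⟩ := hSne
    have h1 := hdeg ξ hξ
    have h2 := hnorm ξ hξ 1
    rw [h1, mul_one, Complex.norm_natCast] at h2
    exact_mod_cast h2
  subst he1
  refine ⟨S, by rw [hind, Nat.cast_one, one_smul], fun ξ hξ => ⟨hnorm ξ hξ, ?_, ?_⟩⟩
  · rw [hdeg ξ hξ]; simp
  · intro n
    have h0 := hsum ξ hξ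
    have h1 := hdeg ξ hξ
    obtain ⟨k, ρ, hirr, hρ⟩ := ξ.2
    haveI := hirr
    rw [← hρ] at h0 h1 ⊢
    have h2 := rho_eq_one_of_sum_ne_zero ρ N h0 n
    show LinearMap.trace ℂ _ (ρ (n : K)) = 1
    have h3 : ρ.character 1 = 1 := by rw [h1]; simp
    have h4 : LinearMap.trace ℂ _ (ρ 1) = 1 := h3
    rw [map_one] at h4
    rw [h2]; exact h4

/-- The trichotomy for the restriction of an invariant irreducible character to the bottom of
an abelian chief factor, in abstract form. -/
theorem chief_trichotomy (hab : ∀ x y : K, x * y * x⁻¹ * y⁻¹ ∈ N) {ϑ : K → ℂ}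
    (hϑ : IsIrrCharacter K ϑ)
    (hchief : ∀ U : Subgroup K, N ≤ U →
      (∀ σ : K ≃* K, (∀ n, σ n ∈ N ↔ n ∈ N) → (∀ k, ϑ (σ k) = ϑ k) → ∀ u ∈ U, σ u ∈ U) →
      U = N ∨ U = ⊤) :
    IsIrrCharacter N (fun n : N => ϑ n) ∨
    (∃ (φ : N → ℂ) (e : ℕ), IsIrrCharacter N φ ∧ (fun n : N => ϑ n) = (e : ℂ) • φ ∧
      e ^ 2 = N.index) ∨
    (∃ F : Finset (N → ℂ), (∀ φ ∈ F, IsIrrCharacter N φ) ∧ F.card = N.index ∧
      (fun n : N => ϑ n) = ∑ φ ∈ F, φ) := by
  classical
  have hcfϑ : IsClassFunction K ϑ := isClassFunction_irr ⟨ϑ, hϑ⟩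
  have hres : IsCharacter N (fun n : N => ϑ n) :=
    isCharacter_res N (isCharacter_of_isIrrCharacter hϑ)
  have hK0 : (Nat.card K : ℂ) ≠ 0 := by exact_mod_cast (Nat.card_pos (α := K)).ne'
  have hN0 : (Nat.card N : ℂ) ≠ 0 := by exact_mod_cast (Nat.card_pos (α := N)).ne'
  -- Clifford data
  have hres1 : (fun n : N => ϑ n) 1 ≠ 0 := by
    show ϑ ((1 : N) : K) ≠ 0
    rw [Subgroup.coe_one]; exact isIrrCharacter_one_ne_zero hϑ
  obtain ⟨φ₀, hφ₀⟩ := exists_irr_constituent hres hres1
  obtain ⟨e, he⟩ := classInner_isCharacter_nat hres (isCharacter_of_isIrrCharacter φ₀.2)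
  have he0 : e ≠ 0 := by
    rintro rfl
    apply hφ₀; rw [he]; simp
  have hcl := clifford N hϑ φ₀.2 hφ₀
  rw [he] at hcl
  have hnorm2 : classInner (fun n : N => ϑ n) (fun n : N => ϑ n) =
      ((e ^ 2 * (conjFinset N (φ₀ : N → ℂ)).card : ℕ) : ℂ) := by
    have h1 : classInner (fun n : N => ϑ n) (fun n : N => ϑ n) =
        classInner ((e : ℂ) • ∑ ψ ∈ conjFinset N (φ₀ : N → ℂ), ψ) (fun n : N => ϑ n) := by
      rw [← hcl]
    rw [h1, classInner_smul_left, classInner_sum_left]
    have h2 : ∀ ψ ∈ conjFinset N (φ₀ : N → ℂ), classInner ψ (fun n : N => ϑ n) = (e : ℂ) := by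
      intro ψ hψ
      obtain ⟨g, rfl⟩ := (mem_conjFinset N _ ψ).mp hψ
      rw [classInner_conj_symm, classInner_res_twist N ϑ hcfϑ, he, Complex.conj_natCast]
    rw [Finset.sum_congr rfl h2, Finset.sum_const, nsmul_eq_mul]
    push_cast; ring
  -- the subgroup generated by the support
  let U : Subgroup K := N ⊔ Subgroup.closure {k | ϑ k ≠ 0}
  have hU := hchief U le_sup_left (by
    intro σ hσN hσϑ u hu
    have hle : U ≤ U.comap σ.toMonoidHom := by
      apply sup_le
      · intro n hn; exact Subgroup.mem_sup_left ((hσN n).mpr hn)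
      · rw [Subgroup.closure_le]
        intro k hk
        apply Subgroup.mem_sup_right
        apply Subgroup.subset_closure
        show ϑ (σ k) ≠ 0
        rw [hσϑ]; exact hk
    exact hle hu)
  rcases hU with hU | hU
  · right
    -- ϑ vanishes off N
    have hvan : ∀ k, k ∉ N → ϑ k = 0 := by
      intro k hk
      by_contra h
      apply hk
      rw [← hU]
      exact Subgroup.mem_sup_right (Subgroup.subset_closure h)
    have hnorm : classInner (fun n : N => ϑ n) (fun n : N => ϑ n) = (N.index : ℂ) := by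
      have h1 := irr_orthonormal hϑ hϑ
      rw [if_pos rfl] at h1
      unfold classInner at h1 ⊢
      have h2 : ∑ k : K, ϑ k * conj (ϑ k) = ∑ n : N, ϑ n * conj (ϑ n) := by
        rw [← sum_extendByZero_mul N (fun n : N => ϑ n) (fun k => conj (ϑ k))]
        apply Finset.sum_congr rfl
        intro k _
        by_cases hk : k ∈ N
        · rw [extendByZero_mem N _ hk]
        · rw [extendByZero_not_mem N _ hk, hvan k hk, zero_mul]
      rw [h2] at h1
      have h3 : (Nat.card K : ℂ) = (Nat.card N : ℂ) * (N.index : ℂ) := by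
        rw [← Nat.cast_mul, Subgroup.card_mul_index]
      have h4 : ∑ n : N, ϑ n * conj (ϑ n) = (Nat.card K : ℂ) := by
        field_simp at h1
        exact h1
      rw [h4, h3]
      field_simp
    have het : e ^ 2 * (conjFinset N (φ₀ : N → ℂ)).card = N.index := by
      rw [hnorm] at hnorm2
      exact_mod_cast hnorm2.symm
    -- the inertia-type subgroup
    let T' : Subgroup K :=
      { carrier := {u | ∀ ψ : N → ℂ, IsIrrCharacter N ψ →
          classInner (fun n : N => ϑ n) ψ ≠ 0 → twist N u ψ = ψ}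
        one_mem' := fun ψ _ _ => twist_one N ψ
        mul_mem' := by
          intro a b ha hb ψ h1 h2
          rw [← twist_twist, ha ψ h1 h2, hb ψ h1 h2]
        inv_mem' := by
          intro a ha ψ h1 h2
          have h3 : twist N a⁻¹ (twist N a ψ) = ψ := by
            rw [twist_twist, mul_inv_cancel, twist_one]
          rw [ha ψ h1 h2] at h3
          exact h3 }
    have hNT' : N ≤ T' := by
      intro n hn ψ hψ _
      exact twist_eq_of_mem N (isClassFunction_irr ⟨ψ, hψ⟩) hn
    have hT := hchief T' hNT' (by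
      intro σ hσN hσϑ u hu ψ hψ hcψ
      let fN : N →* N := (σ.toMonoidHom.comp N.subtype).codRestrict N
        (fun n => (hσN n).mpr n.2)
      have hsurj : Function.Surjective fN := by
        intro m
        refine ⟨⟨σ.symm m, (hσN _).mp (by rw [σ.apply_symm_apply]; exact m.2)⟩, ?_⟩
        apply Subtype.ext
        exact σ.apply_symm_apply m
      have hbij : Function.Bijective fN := ⟨Finite.injective_iff_surjective.mpr hsurj, hsurj⟩
      have hψ' : IsIrrCharacter N (ψ ∘ fN) := isIrrCharacter_comp_of_surjective hψ fN hsurj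
      have hcψ' : classInner (fun n : N => ϑ n) (ψ ∘ fN) ≠ 0 := by
        have : classInner (fun n : N => ϑ n) (ψ ∘ fN) = classInner (fun n : N => ϑ n) ψ := by
          unfold classInner
          congr 1
          rw [← Function.Bijective.sum_comp hbij (fun m : N => ϑ m * conj (ψ m))]
          apply Finset.sum_congr rfl
          intro n _
          have : ϑ ((fN n : N) : K) = ϑ n := hσϑ n
          rw [this]; rfl
        rw [this]; exact hcψ
      have h1 := hu (ψ ∘ fN) hψ' hcψ'
      funext m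
      obtain ⟨n, rfl⟩ := hsurj m
      have h2 := congrFun h1 n
      have h3 : twist N (σ u) ψ (fN n) = twist N u (ψ ∘ fN) n := by
        show ψ _ = ψ _
        congr 1
        apply Subtype.ext
        show σ u * σ n * (σ u)⁻¹ = σ (u * n * u⁻¹)
        rw [map_mul, map_mul, map_inv]
      rw [h3, h2]; rfl)
    rcases hT with hT | hT
    · -- inertia group is N: multiplicity-free sum of index-many conjugates
      right
      have hstab : ∀ y : K, twist N y (φ₀ : N → ℂ) = φ₀ ↔ y ∈ N := by
        intro y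
        constructor
        · intro hy
          rw [← hT]
          intro ψ hψ hcψ
          obtain ⟨g, rfl⟩ := exists_twist_eq_of_constituents N hϑ φ₀.2 hψ hφ₀ hcψ
          have e1 : g * y = (g * y * g⁻¹ * y⁻¹) * (y * g) := by group
          rw [twist_twist, e1, ← twist_twist,
            twist_eq_of_mem N (isClassFunction_irr φ₀) (hab g y), ← twist_twist, hy]
        · intro hy
          exact twist_eq_of_mem N (isClassFunction_irr φ₀) hy
      have hcardstab : Nat.card {y : K // twist N y (φ₀ : N → ℂ) = φ₀} = Nat.card N :=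
        Nat.card_congr (Equiv.subtypeEquivRight hstab)
      have hcm := card_conjFinset_mul N (φ₀ : N → ℂ) (isIrrCharacter_one_ne_zero φ₀.2)
      rw [hcardstab, ← Subgroup.card_mul_index N] at hcm
      have ht : (conjFinset N (φ₀ : N → ℂ)).card = N.index :=
        Nat.eq_of_mul_eq_mul_left Nat.card_pos hcm
      have hidx : 0 < N.index := Nat.pos_of_ne_zero Subgroup.index_ne_zero_of_finite
      have he1 : e = 1 := by
        rw [ht] at het
        have h1 : e ^ 2 = 1 := by
          have : e ^ 2 * N.index = 1 * N.index := by rw [het, one_mul]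
          exact Nat.eq_of_mul_eq_mul_right hidx this
        exact Nat.pow_eq_one.mp h1 |>.resolve_right (by norm_num)
      refine ⟨conjFinset N (φ₀ : N → ℂ), ?_, ht, ?_⟩
      · intro φ hφ
        obtain ⟨g, rfl⟩ := (mem_conjFinset N _ φ).mp hφ
        exact isIrrCharacter_twist N g φ₀.2
      · rw [hcl, he1, Nat.cast_one, one_smul]
    · -- φ₀ invariant
      left
      have hO : conjFinset N (φ₀ : N → ℂ) = {(φ₀ : N → ℂ)} := by
        ext φ
        rw [mem_conjFinset, Finset.mem_singleton]
        constructor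
        · rintro ⟨g, rfl⟩
          have : g ∈ T' := by rw [hT]; trivial
          exact this φ₀ φ₀.2 hφ₀
        · intro h; exact ⟨1, by rw [h, twist_one]⟩
      rw [hO] at hcl het
      rw [Finset.sum_singleton] at hcl
      rw [Finset.card_singleton, mul_one] at het
      exact ⟨φ₀, e, φ₀.2, hcl, het⟩
  · left
    obtain ⟨S, hS, hSprop⟩ := exists_linear_family N hab
    have hirrmul : ∀ ξ ∈ S, IsIrrCharacter K ((ξ : K → ℂ) * ϑ) := fun ξ hξ =>
      isIrrCharacter_mul_of_norm_one (isCharacter_of_isIrrCharacter ξ.2) (hSprop ξ hξ).1 hϑ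
    have hkey : ∑ ξ ∈ S, classInner ((ξ : K → ℂ) * ϑ) ϑ =
        classInner (fun n : N => ϑ n) (fun n : N => ϑ n) := by
      rw [← classInner_sum_left, ← Finset.sum_mul, ← hS]
      have hχcf : IsClassFunction K (fun k => conj (ϑ k) * ϑ k) := by
        intro g h
        show conj (ϑ (h * g * h⁻¹)) * ϑ (h * g * h⁻¹) = conj (ϑ g) * ϑ g
        rw [hcfϑ g h]
      have h1 : classInner (indFun N (fun _ : N => (1 : ℂ)) * ϑ) ϑ =
          classInner (indFun N (fun _ : N => (1 : ℂ))) (fun k => conj (ϑ k) * ϑ k) := by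
        unfold classInner
        congr 1
        apply Finset.sum_congr rfl
        intro k _
        simp only [Pi.mul_apply, map_mul, Complex.conj_conj]
        ring
      rw [h1, frobenius_reciprocity N _ _ hχcf]
      unfold classInner
      congr 1
      apply Finset.sum_congr rfl
      intro n _
      simp only [map_mul, Complex.conj_conj, one_mul]
    have hone : ∀ ξ ∈ S, (ξ : K → ℂ) * ϑ = ϑ → (ξ : K → ℂ) = fun _ => 1 := by
      intro ξ hξ hmul
      obtain ⟨l, hl⟩ := exists_hom_of_linear ξ.2 (hSprop ξ hξ).2.1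
      have hle : U ≤ l.ker := by
        apply sup_le
        · intro n hn
          rw [MonoidHom.mem_ker]
          apply Units.ext
          rw [← hl]
          exact (hSprop ξ hξ).2.2 ⟨n, hn⟩
        · rw [Subgroup.closure_le]
          intro k hk
          show k ∈ l.ker
          rw [MonoidHom.mem_ker]
          apply Units.ext
          rw [← hl]
          have h1 := congrFun hmul k
          simp only [Pi.mul_apply] at h1
          have h2 : ((ξ : K → ℂ) k - 1) * ϑ k = 0 := by rw [sub_mul, h1, one_mul, sub_self]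
          rcases mul_eq_zero.mp h2 with h3 | h3
          · exact sub_eq_zero.mp h3
          · exact absurd h3 hk
      funext k
      have hk : k ∈ l.ker := hle (by rw [hU]; trivial)
      rw [hl, MonoidHom.mem_ker.mp hk]; rfl
    let τ : IrrCharacter K := ⟨fun _ => 1, isIrrCharacter_one K⟩
    have hle1 : ∑ ξ ∈ S, classInner ((ξ : K → ℂ) * ϑ) ϑ = 0 ∨
        ∑ ξ ∈ S, classInner ((ξ : K → ℂ) * ϑ) ϑ = 1 := by
      have hterm : ∀ ξ ∈ S, ξ ≠ τ → classInner ((ξ : K → ℂ) * ϑ) ϑ = 0 := by
        intro ξ hξ hne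
        rw [irr_orthonormal (hirrmul ξ hξ) hϑ, if_neg]
        intro h
        exact hne (Subtype.ext (hone ξ hξ h))
      by_cases hτ : τ ∈ S
      · right
        rw [Finset.sum_eq_single_of_mem τ hτ (fun ξ hξ hne => hterm ξ hξ hne),
          irr_orthonormal (hirrmul τ hτ) hϑ, if_pos]
        funext k
        show (1 : ℂ) * ϑ k = ϑ k
        rw [one_mul]
      · left
        apply Finset.sum_eq_zero
        intro ξ hξ
        exact hterm ξ hξ (fun h => hτ (h ▸ hξ))
    rw [hkey, hnorm2] at hle1
    have hpos : 0 < (conjFinset N (φ₀ : N → ℂ)).card :=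
      Finset.card_pos.mpr ⟨_, self_mem_conjFinset N _⟩
    rcases hle1 with h0 | h1
    · exfalso
      have : e ^ 2 * (conjFinset N (φ₀ : N → ℂ)).card = 0 := by exact_mod_cast h0
      have he2 : 0 < e ^ 2 := pow_pos (Nat.pos_of_ne_zero he0) 2
      have := Nat.mul_pos he2 hpos
      omega
    · apply isIrrCharacter_of_norm_one hres
      rw [hnorm2, h1]

end Chief

end Cfsg.Agent.Lib.Lead
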