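import Mathlib
import Cfsg.Agent.Lib.Lead.CharPMod
import Cfsg.Agent.Lib.Lead.CharCons
import Cfsg.Agent.Lib.Lead.CharApps
import Cfsg.Agent.S0874

set_option autoImplicit false
set_option maxHeartbeats 1600000

namespace Cfsg.Agent.Lib.Lead

open Cfsg Cfsg.Agent.Lib.Helper2
open scoped ComplexConjugate

universe u

/-- Restriction of an action to an invariant subtype. -/
@[reducible] def subtypeMulAction {Q Ω : Type*} [Group Q] [MulAction Q Ω] (P : Ω → Prop)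
    (hP : ∀ (g : Q) (ω : Ω), P ω → P (g • ω)) : MulAction Q {ω // P ω} where
  smul g x := ⟨g • x.1, hP g x.1 x.2⟩
  one_smul x := Subtype.ext (one_smul Q x.1)
  mul_smul g h x := Subtype.ext (mul_smul g h x.1)

/-- A `p`-group acting on a finite set with an invariant weight whose total is prime to `p`
has a fixed point of weight prime to `p`. -/
theorem exists_fixed_of_sum_not_dvd {Q Ω : Type*} [Group Q] [MulAction Q Ω] [Fintype Ω] {p : ℕ}
    [Fact p.Prime] (hQ : IsPGroup p Q) (f : Ω → ℕ) (hf : ∀ (g : Q) (ω : Ω), f (g • ω) = f ω)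
    (hsum : ¬ p ∣ ∑ ω, f ω) : ∃ ω, (∀ g : Q, g • ω = ω) ∧ ¬ p ∣ f ω := by
  classical
  by_contra hno
  push Not at hno
  apply hsum
  rw [← Finset.sum_fiberwise_of_maps_to (t := Finset.univ.image f) (g := f)
    (fun x _ => Finset.mem_image_of_mem f (Finset.mem_univ x))]
  apply Finset.dvd_sum
  intro v _
  have h1 : ∑ ω ∈ Finset.univ.filter (fun ω => f ω = v), f ω =
      (Finset.univ.filter (fun ω => f ω = v)).card * v := by
    rw [Finset.sum_congr rfl (fun ω hω => (Finset.mem_filter.mp hω).2), Finset.sum_const,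
      smul_eq_mul]
  rw [h1]
  by_cases hv : p ∣ v
  · exact Dvd.dvd.mul_left hv _
  · apply Dvd.dvd.mul_right
    letI : MulAction Q {ω // f ω = v} :=
      subtypeMulAction (fun ω => f ω = v) (fun g ω h => by rw [hf]; exact h)
    have h2 := hQ.card_modEq_card_fixedPoints {ω // f ω = v}
    have h3 : Nat.card (MulAction.fixedPoints Q {ω // f ω = v}) = 0 := by
      rw [Nat.card_eq_zero]; left
      constructor
      rintro ⟨⟨ω, hω⟩, hfix⟩
      have h5 := hno ω (fun g => congrArg Subtype.val (hfix g))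
      rw [hω] at h5; exact hv h5
    rw [h3] at h2
    have h4 : Nat.card {ω // f ω = v} = (Finset.univ.filter (fun ω => f ω = v)).card := by
      rw [Nat.card_eq_fintype_card, Fintype.card_subtype]
    rw [← h4]
    exact (Nat.modEq_zero_iff_dvd.mp h2)

/-- Conjugation by an element of `E` on `E ⊓ N`. -/
def conjInf {G : Type u} [Group G] (E N : Subgroup G) [hN : N.Normal] (g : E) :
    ↥(E ⊓ N) ≃* ↥(E ⊓ N) where
  toFun x := ⟨(g : G) * x * (g : G)⁻¹,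
    ⟨E.mul_mem (E.mul_mem g.2 x.2.1) (E.inv_mem g.2), hN.conj_mem (x : G) x.2.2 g⟩⟩
  invFun x := ⟨(g : G)⁻¹ * x * (g : G),
    ⟨E.mul_mem (E.mul_mem (E.inv_mem g.2) x.2.1) g.2, by
      have := hN.conj_mem (x : G) x.2.2 (g : G)⁻¹; rwa [inv_inv] at this⟩⟩
  left_inv x := Subtype.ext (by simp [mul_assoc])
  right_inv x := Subtype.ext (by simp [mul_assoc])
  map_mul' x y := Subtype.ext (by simp [mul_assoc])

/-- The action of `E` on the irreducible characters of `E ⊓ N`. -/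
@[reducible] noncomputable def irrConjAction {G : Type u} [Group G] (E N : Subgroup G) [hN : N.Normal] :
    MulAction E (IrrCharacter ↥(E ⊓ N)) where
  smul g φ := ⟨(φ : ↥(E ⊓ N) → ℂ) ∘ ((conjInf E N g).symm : ↥(E ⊓ N) →* ↥(E ⊓ N)),
    isIrrCharacter_comp_of_surjective φ.2 _ (conjInf E N g).symm.surjective⟩
  one_smul φ := Subtype.ext (funext fun x => congrArg (φ : ↥(E ⊓ N) → ℂ)
    (Subtype.ext (by simp [conjInf])))
  mul_smul g h φ := Subtype.ext (funext fun x => congrArg (φ : ↥(E ⊓ N) → ℂ)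
    (Subtype.ext (by simp [conjInf, mul_assoc])))

theorem irrConjAction_apply {G : Type u} [Group G] (E N : Subgroup G) [hN : N.Normal]
    (g : E) (φ : IrrCharacter ↥(E ⊓ N)) (x : ↥(E ⊓ N)) :
    (((irrConjAction E N).smul g φ : IrrCharacter ↥(E ⊓ N)) : ↥(E ⊓ N) → ℂ) x =
      (φ : ↥(E ⊓ N) → ℂ) ⟨(g : G)⁻¹ * x * (g : G),
        ⟨E.mul_mem (E.mul_mem (E.inv_mem g.2) x.2.1) g.2, by
          have := hN.conj_mem (x : G) x.2.2 (g : G)⁻¹; rwa [inv_inv] at this⟩⟩ := rfl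


/-- Summing over `E` a function supported on `E ⊓ N`. -/
theorem sum_inf_subtype {G : Type u} [Group G] (E N : Subgroup G) [Fintype E]
    [Fintype ↥(E ⊓ N)] (F : E → ℂ) (hF : ∀ x : E, (x : G) ∉ N → F x = 0) :
    ∑ x : E, F x = ∑ d : ↥(E ⊓ N), F ⟨(d : G), d.2.1⟩ := by
  classical
  rw [← Finset.sum_filter_of_ne (p := fun x : E => (x : G) ∈ N)
    (fun x _ hx => by by_contra h; exact hx (hF x h))]
  symm
  refine Finset.sum_bij (fun d _ => (⟨(d : G), d.2.1⟩ : E)) ?_ ?_ ?_ ?_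
  · intro d _
    rw [Finset.mem_filter]
    exact ⟨Finset.mem_univ _, d.2.2⟩
  · intro d _ d' _ h
    exact Subtype.ext (congrArg (fun x : E => (x : G)) h)
  · intro x hx
    rw [Finset.mem_filter] at hx
    exact ⟨⟨(x : G), ⟨x.2, hx.2⟩⟩, Finset.mem_univ _, rfl⟩
  · intro d _; rfl

open scoped Classical in
/-- Dade's lemma, first part: a `p`-elementary subgroup covering `G / N` and a character of it
whose restriction to `E ⊓ N` pairs with `ϑ ϑ̄` to a number prime to `p`. -/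
theorem dade_partA {G : Type u} [Group G] [Fintype G] (p : ℕ) (hp : p.Prime) (N : Subgroup G)
    [hN : N.Normal] (hind : ∃ k : ℕ, N.index = p ^ k) (ϑ : N → ℂ) (hϑ : IsIrrCharacter N ϑ)
    (hinv : ∀ (g : G) (n : N), ϑ ⟨g * n * g⁻¹, hN.conj_mem (n : G) n.2 g⟩ = ϑ n) :
    ∃ (E : Subgroup G) (η : E → ℂ) (I : ℕ), IsElementary p E ∧ E ⊔ N = ⊤ ∧ IsCharacter E η ∧
      ¬ p ∣ I ∧ (I : ℂ) = (Nat.card ↥(E ⊓ N) : ℂ)⁻¹ * ∑ x : ↥(E ⊓ N),
        (η ⟨(x : G), x.2.1⟩ * ϑ ⟨(x : G), x.2.2⟩) * conj (ϑ ⟨(x : G), x.2.2⟩) := by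
  obtain ⟨m₀, l, hm₀, hl, hsum⟩ := Cfsg.Agent.S0874.result (G := G) p hp
  obtain ⟨Ψ, hΨ⟩ : ∃ Ψ : N → ℂ, Ψ = fun n => ϑ n * conj (ϑ n) := ⟨_, rfl⟩
  obtain ⟨Ψ0, hΨ0⟩ : ∃ Ψ0 : G → ℂ, Ψ0 = extendByZero N Ψ := ⟨_, rfl⟩
  have hΨ0cf : IsClassFunction G Ψ0 := by
    intro g h
    rw [hΨ0]
    by_cases hg : g ∈ N
    · have hg' : h * g * h⁻¹ ∈ N := hN.conj_mem g hg h
      rw [extendByZero_mem N Ψ hg, extendByZero_mem N Ψ hg', hΨ]
      show ϑ ⟨h * g * h⁻¹, hg'⟩ * conj (ϑ ⟨h * g * h⁻¹, hg'⟩) = ϑ ⟨g, hg⟩ * conj (ϑ ⟨g, hg⟩)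
      have e : ϑ ⟨h * g * h⁻¹, hg'⟩ = ϑ ⟨g, hg⟩ := hinv h ⟨g, hg⟩
      rw [e]
    · have hg' : h * g * h⁻¹ ∉ N := fun h' => hg (by
        have := hN.conj_mem _ h' h⁻¹
        simpa [mul_assoc] using this)
      rw [extendByZero_not_mem N Ψ hg, extendByZero_not_mem N Ψ hg']
  have hreal : ∀ g : G, conj (Ψ0 g) = Ψ0 g := by
    intro g
    rw [hΨ0]
    by_cases hg : g ∈ N
    · rw [extendByZero_mem N Ψ hg, hΨ]
      simp [mul_comm]
    · rw [extendByZero_not_mem N Ψ hg, map_zero]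
  have hG0 : (Nat.card G : ℂ) ≠ 0 := by exact_mod_cast Nat.card_pos.ne'
  have hN0 : (Nat.card N : ℂ) ≠ 0 := by exact_mod_cast Nat.card_pos.ne'
  have hinner : ∀ f : G → ℂ, classInner f Ψ0 =
      (Nat.card G : ℂ)⁻¹ * ∑ n : N, Ψ n * f n := by
    intro f
    show (Nat.card G : ℂ)⁻¹ * ∑ g : G, f g * conj (Ψ0 g) = _
    congr 1
    rw [← sum_extendByZero_mul N Ψ f]
    apply Finset.sum_congr rfl
    intro g _
    rw [hreal, hΨ0, mul_comm]
  have hΨsum : ∑ n : N, Ψ n = (Nat.card N : ℂ) := by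
    have h1 : classInner ϑ ϑ = 1 := by rw [irr_orthonormal hϑ hϑ, if_pos rfl]
    have h2 : classInner ϑ ϑ = (Nat.card N : ℂ)⁻¹ * ∑ n : N, ϑ n * conj (ϑ n) := rfl
    rw [h1] at h2
    rw [hΨ]
    field_simp at h2
    exact h2.symm
  obtain ⟨k, hk⟩ := hind
  -- the property
  have hP : ∀ f : G → ℂ, IInd (fun E : Subgroup G => IsElementary p E) f →
      ∃ z : ℤ, (z : ℂ) = (Nat.card G : ℂ) * (Nat.card N : ℂ)⁻¹ * classInner f Ψ0 ∧
        (¬ (p : ℤ) ∣ z → ∃ (E : Subgroup G) (η : E → ℂ) (I : ℕ), IsElementary p E ∧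
          E ⊔ N = ⊤ ∧ IsCharacter E η ∧ ¬ p ∣ I ∧ (I : ℂ) = (Nat.card ↥(E ⊓ N) : ℂ)⁻¹ *
            ∑ x : ↥(E ⊓ N), (η ⟨(x : G), x.2.1⟩ * ϑ ⟨(x : G), x.2.2⟩) *
              conj (ϑ ⟨(x : G), x.2.2⟩)) := by
    intro f hf
    refine iInd_induction (P := fun f => ∃ z : ℤ, (z : ℂ) = (Nat.card G : ℂ) *
      (Nat.card N : ℂ)⁻¹ * classInner f Ψ0 ∧
        (¬ (p : ℤ) ∣ z → ∃ (E : Subgroup G) (η : E → ℂ) (I : ℕ), IsElementary p E ∧
          E ⊔ N = ⊤ ∧ IsCharacter E η ∧ ¬ p ∣ I ∧ (I : ℂ) = (Nat.card ↥(E ⊓ N) : ℂ)⁻¹ *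
            ∑ x : ↥(E ⊓ N), (η ⟨(x : G), x.2.1⟩ * ϑ ⟨(x : G), x.2.2⟩) *
              conj (ϑ ⟨(x : G), x.2.2⟩))) ?_ ?_ ?_ hf
    · refine ⟨0, ?_, fun h => absurd (dvd_zero _) h⟩
      rw [classInner_zero_left]; simp
    · rintro f g ⟨z₁, hz₁, h₁⟩ ⟨z₂, hz₂, h₂⟩
      refine ⟨z₁ + z₂, ?_, ?_⟩
      · rw [classInner_add_left]; push_cast; rw [hz₁, hz₂]; ring
      · intro hnd
        by_cases hd : (p : ℤ) ∣ z₁
        · apply h₂
          intro hd2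
          exact hnd (dvd_add hd hd2)
        · exact h₁ hd
    · intro E φ c hE hφ
      -- the natural number I
      have hφD : IsCharacter ↥(E ⊓ N) (fun x : ↥(E ⊓ N) => φ ⟨(x : G), x.2.1⟩) :=
        isCharacter_comp (Subgroup.inclusion (inf_le_left : E ⊓ N ≤ E)) hφ
      have hϑD : IsCharacter ↥(E ⊓ N) (fun x : ↥(E ⊓ N) => ϑ ⟨(x : G), x.2.2⟩) :=
        isCharacter_comp (Subgroup.inclusion (inf_le_right : E ⊓ N ≤ N))
          (isCharacter_of_isIrrCharacter hϑ)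
      obtain ⟨I, hI⟩ := classInner_isCharacter_nat (isCharacter_mul hφD hϑD) hϑD
      have hI' : (I : ℂ) = (Nat.card ↥(E ⊓ N) : ℂ)⁻¹ * ∑ x : ↥(E ⊓ N),
          (φ ⟨(x : G), x.2.1⟩ * ϑ ⟨(x : G), x.2.2⟩) * conj (ϑ ⟨(x : G), x.2.2⟩) := by
        rw [← hI]; rfl
      -- the inner product
      have h1 : classInner (indFun E φ) Ψ0 = (Nat.card E : ℂ)⁻¹ *
          ∑ x : ↥(E ⊓ N), (φ ⟨(x : G), x.2.1⟩ * ϑ ⟨(x : G), x.2.2⟩) *
            conj (ϑ ⟨(x : G), x.2.2⟩) := by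
        rw [frobenius_reciprocity E φ Ψ0 hΨ0cf]
        show (Nat.card E : ℂ)⁻¹ * ∑ x : E, φ x * conj (Ψ0 (x : G)) = _
        congr 1
        rw [sum_inf_subtype E N (fun x : E => φ x * conj (Ψ0 (x : G))) (fun x hx => by
          show φ x * conj (Ψ0 (x : G)) = 0
          rw [hΨ0, extendByZero_not_mem N Ψ hx, map_zero, mul_zero])]
        apply Finset.sum_congr rfl
        intro d _
        show φ ⟨(d : G), d.2.1⟩ * conj (Ψ0 (d : G)) = _
        rw [hreal, hΨ0, extendByZero_mem N Ψ d.2.2, hΨ]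
        ring
      -- the index identity
      have hidx : Nat.card G * Nat.card ↥(E ⊓ N) = Nat.card N * Nat.card E * (E ⊔ N).index := by
        have e1 : N.relIndex (E ⊔ N) * (E ⊔ N).index = N.index :=
          Subgroup.relIndex_mul_index le_sup_right
        have e2 : N.relIndex (E ⊔ N) = N.relIndex E := Subgroup.relIndex_sup_right E N
        have e3 : (E ⊓ N).relIndex E = N.relIndex E := Subgroup.inf_relIndex_left E N
        have e4 : Nat.card ↥(E ⊓ N) * (E ⊓ N).relIndex E = Nat.card E := by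
          have := Subgroup.relIndex_mul_relIndex ⊥ (E ⊓ N) E bot_le inf_le_left
          rwa [Subgroup.relIndex_bot_left, Subgroup.relIndex_bot_left] at this
        have e5 : Nat.card N * N.index = Nat.card G := Subgroup.card_mul_index N
        rw [← e5, ← e1, e2, ← e3, ← e4]; ring
      have hE0 : (Nat.card E : ℂ) ≠ 0 := by exact_mod_cast Nat.card_pos.ne'
      have hD0 : (Nat.card ↥(E ⊓ N) : ℂ) ≠ 0 := by exact_mod_cast Nat.card_pos.ne'
      refine ⟨c * ((E ⊔ N).index : ℤ) * (I : ℤ), ?_, ?_⟩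
      · rw [classInner_smul_left, h1]
        push_cast
        rw [hI']
        have hidx' : (Nat.card G : ℂ) * (Nat.card ↥(E ⊓ N) : ℂ) =
            (Nat.card N : ℂ) * (Nat.card E : ℂ) * ((E ⊔ N).index : ℂ) := by exact_mod_cast hidx
        field_simp
        linear_combination (-(c : ℂ)) * (∑ x : ↥(E ⊓ N),
          (φ ⟨(x : G), x.2.1⟩ * ϑ ⟨(x : G), x.2.2⟩) * conj (ϑ ⟨(x : G), x.2.2⟩)) * hidx'
      · intro hnd
        have hj : ¬ p ∣ (E ⊔ N).index := by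
          intro h
          apply hnd
          have : (p : ℤ) ∣ ((E ⊔ N).index : ℤ) := by exact_mod_cast h
          exact Dvd.dvd.mul_right (Dvd.dvd.mul_left this c) _
        have hI2 : ¬ p ∣ I := by
          intro h
          apply hnd
          have : (p : ℤ) ∣ (I : ℤ) := by exact_mod_cast h
          exact Dvd.dvd.mul_left this _
        have hj1 : (E ⊔ N).index = 1 := by
          have hdvd : (E ⊔ N).index ∣ p ^ k := by
            rw [← hk]; exact Subgroup.index_dvd_of_le le_sup_right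
          obtain ⟨i, -, hi⟩ := (Nat.dvd_prime_pow hp).mp hdvd
          rw [hi] at hj ⊢
          rcases Nat.eq_zero_or_pos i with h0 | h0
          · rw [h0, pow_zero]
          · exact absurd (dvd_pow_self p h0.ne') hj
        exact ⟨E, φ, I, hE, Subgroup.index_eq_one.mp hj1, hφ, hI2, hI'⟩
  obtain ⟨z, hz, hgood⟩ := hP (fun _ => (m₀ : ℂ)) ⟨l, hl, hsum⟩
  apply hgood
  have hz' : (z : ℂ) = (m₀ : ℂ) := by
    rw [hz, hinner, ← Finset.sum_mul, hΨsum]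
    field_simp
  have : z = m₀ := by exact_mod_cast hz'
  rw [this]; exact hm₀


open scoped Classical in
/-- Dade's lemma. -/
theorem dade_lemma {G : Type u} [Group G] [Fintype G] (p : ℕ) (hp : p.Prime) (N : Subgroup G)
    [hN : N.Normal] (hind : ∃ k : ℕ, N.index = p ^ k) (ϑ : N → ℂ) (hϑ : IsIrrCharacter N ϑ)
    (hinv : ∀ (g : G) (n : N), ϑ ⟨g * n * g⁻¹, hN.conj_mem (n : G) n.2 g⟩ = ϑ n) :
    ∃ (E : Subgroup G) (φ : ↥(E ⊓ N) → ℂ), IsElementary p E ∧ E ⊔ N = ⊤ ∧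
      IsIrrCharacter ↥(E ⊓ N) φ ∧
      (∀ (g : G) (hg : g ∈ E) (x : ↥(E ⊓ N)), φ ⟨g * x * g⁻¹,
        ⟨(E.mul_mem (E.mul_mem hg x.2.1) (E.inv_mem hg)), hN.conj_mem (x : G) x.2.2 g⟩⟩ = φ x) ∧
      ∃ m : ℕ, ¬ p ∣ m ∧ (Nat.card ↥(E ⊓ N) : ℂ)⁻¹ *
        ∑ x : ↥(E ⊓ N), ϑ ⟨(x : G), x.2.2⟩ * conj (φ x) = (m : ℂ) := by
  obtain ⟨E, η, I, hE, hEN, hη, hI, hIeq⟩ := dade_partA p hp N hind ϑ hϑ hinv
  haveI : Fact p.Prime := ⟨hp⟩
  haveI : Finite (IrrCharacter ↥(E ⊓ N)) := irr_finite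
  letI : Fintype (IrrCharacter ↥(E ⊓ N)) := Fintype.ofFinite _
  have hηD : IsCharacter ↥(E ⊓ N) (fun x : ↥(E ⊓ N) => η ⟨(x : G), x.2.1⟩) :=
    isCharacter_comp (Subgroup.inclusion (inf_le_left : E ⊓ N ≤ E)) hη
  have hϑD : IsCharacter ↥(E ⊓ N) (fun x : ↥(E ⊓ N) => ϑ ⟨(x : G), x.2.2⟩) :=
    isCharacter_comp (Subgroup.inclusion (inf_le_right : E ⊓ N ≤ N))
      (isCharacter_of_isIrrCharacter hϑ)
  have hβ := isCharacter_mul hηD hϑD
  choose a ha using fun φ : IrrCharacter ↥(E ⊓ N) =>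
    classInner_isCharacter_nat hϑD (isCharacter_of_isIrrCharacter φ.2)
  choose b hb using fun φ : IrrCharacter ↥(E ⊓ N) =>
    classInner_isCharacter_nat hβ (isCharacter_of_isIrrCharacter φ.2)
  have hIsum : I = ∑ φ : IrrCharacter ↥(E ⊓ N), b φ * a φ := by
    have h1 : (I : ℂ) = classInner ((fun x : ↥(E ⊓ N) => η ⟨(x : G), x.2.1⟩) *
        (fun x : ↥(E ⊓ N) => ϑ ⟨(x : G), x.2.2⟩)) (fun x : ↥(E ⊓ N) => ϑ ⟨(x : G), x.2.2⟩) :=
      hIeq
    rw [classInner_eq_sum_irr _ _ (isClassFunction_of_isCharacter hβ)] at h1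
    have h2 : ∀ φ : IrrCharacter ↥(E ⊓ N),
        classInner (φ : ↥(E ⊓ N) → ℂ) (fun x : ↥(E ⊓ N) => ϑ ⟨(x : G), x.2.2⟩) = (a φ : ℂ) := by
      intro φ
      rw [classInner_conj_symm, ha φ, Complex.conj_natCast]
    simp_rw [h2, hb] at h1
    exact_mod_cast h1
  letI act : MulAction E (IrrCharacter ↥(E ⊓ N)) := irrConjAction E N
  have hact : ∀ (g : E) (φ : IrrCharacter ↥(E ⊓ N)) (x : ↥(E ⊓ N)),
      ((g • φ : IrrCharacter ↥(E ⊓ N)) : ↥(E ⊓ N) → ℂ) x =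
        (φ : ↥(E ⊓ N) → ℂ) ((conjInf E N g).symm x) := fun g φ x => rfl
  have hclinv : ∀ (F : ↥(E ⊓ N) → ℂ), (∀ (g : E) (x : ↥(E ⊓ N)), F (conjInf E N g x) = F x) →
      ∀ (g : E) (φ : IrrCharacter ↥(E ⊓ N)),
        classInner F ((g • φ : IrrCharacter ↥(E ⊓ N)) : ↥(E ⊓ N) → ℂ) =
          classInner F (φ : ↥(E ⊓ N) → ℂ) := by
    intro F hF g φ
    show (Nat.card ↥(E ⊓ N) : ℂ)⁻¹ * ∑ x : ↥(E ⊓ N),
        F x * conj (((g • φ : IrrCharacter ↥(E ⊓ N)) : ↥(E ⊓ N) → ℂ) x) =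
      (Nat.card ↥(E ⊓ N) : ℂ)⁻¹ * ∑ x : ↥(E ⊓ N), F x * conj ((φ : ↥(E ⊓ N) → ℂ) x)
    congr 1
    refine (Fintype.sum_equiv (conjInf E N g).toEquiv
      (fun y => F y * conj ((φ : ↥(E ⊓ N) → ℂ) y))
      (fun x => F x * conj (((g • φ : IrrCharacter ↥(E ⊓ N)) : ↥(E ⊓ N) → ℂ) x)) ?_).symm
    intro y
    show F y * conj ((φ : ↥(E ⊓ N) → ℂ) y) = F (conjInf E N g y) *
      conj (((g • φ : IrrCharacter ↥(E ⊓ N)) : ↥(E ⊓ N) → ℂ) (conjInf E N g y))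
    rw [hact, MulEquiv.symm_apply_apply, hF]
  have hϑinv : ∀ (g : E) (x : ↥(E ⊓ N)),
      (fun x : ↥(E ⊓ N) => ϑ ⟨(x : G), x.2.2⟩) (conjInf E N g x) =
        (fun x : ↥(E ⊓ N) => ϑ ⟨(x : G), x.2.2⟩) x := by
    intro g x
    exact hinv (g : G) ⟨(x : G), x.2.2⟩
  have hηinv : ∀ (g : E) (x : ↥(E ⊓ N)),
      (fun x : ↥(E ⊓ N) => η ⟨(x : G), x.2.1⟩) (conjInf E N g x) =
        (fun x : ↥(E ⊓ N) => η ⟨(x : G), x.2.1⟩) x := by
    intro g x
    exact isClassFunction_of_isCharacter hη ⟨(x : G), x.2.1⟩ g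
  have hainv : ∀ (g : E) (φ : IrrCharacter ↥(E ⊓ N)), a (g • φ) = a φ := by
    intro g φ
    have h := hclinv (fun x : ↥(E ⊓ N) => ϑ ⟨(x : G), x.2.2⟩) hϑinv g φ
    rw [ha, ha] at h
    exact_mod_cast h
  have hbinv : ∀ (g : E) (φ : IrrCharacter ↥(E ⊓ N)), b (g • φ) = b φ := by
    intro g φ
    have h := hclinv ((fun x : ↥(E ⊓ N) => η ⟨(x : G), x.2.1⟩) *
        (fun x : ↥(E ⊓ N) => ϑ ⟨(x : G), x.2.2⟩)) (fun g x => by
      show (fun x : ↥(E ⊓ N) => η ⟨(x : G), x.2.1⟩) (conjInf E N g x) *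
        (fun x : ↥(E ⊓ N) => ϑ ⟨(x : G), x.2.2⟩) (conjInf E N g x) = _
      rw [hηinv, hϑinv]; rfl) g φ
    rw [hb, hb] at h
    exact_mod_cast h
  -- a Sylow subgroup
  obtain ⟨Q⟩ : Nonempty (Sylow p E) := inferInstance
  have hQ : IsPGroup p Q := Q.isPGroup'
  obtain ⟨φ, hfix, hnd⟩ := exists_fixed_of_sum_not_dvd hQ (fun φ => b φ * a φ)
    (fun g φ => by
      show b ((g : E) • φ) * a ((g : E) • φ) = b φ * a φ
      rw [hainv, hbinv]) (by rw [← hIsum]; exact hI)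
  -- fixed by all of E
  obtain ⟨x₀, hx₀c, hx₀p, k', hk'⟩ := hE
  have hcomp : Subgroup.IsComplement' (Subgroup.zpowers x₀) (Q : Subgroup E) := by
    have hc : Nat.card E = orderOf x₀ * p ^ k' := by
      rw [← Nat.card_zpowers, ← hk']; exact (Subgroup.card_mul_index _).symm
    have hQc : Nat.card Q = p ^ k' := by
      rw [Sylow.card_eq_multiplicity, hc,
        Nat.factorization_mul (orderOf_pos x₀).ne' (pow_pos hp.pos k').ne']
      simp [Nat.factorization_eq_zero_of_not_dvd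
        (fun h => hp.one_lt.ne' ((Nat.Coprime.symm hx₀p).eq_one_of_dvd h)), hp.factorization_self]
    apply Subgroup.isComplement'_of_coprime
    · rw [Nat.card_zpowers]
      show orderOf x₀ * Nat.card Q = Nat.card E
      rw [hQc, hc]
    · rw [Nat.card_zpowers]
      show Nat.Coprime (orderOf x₀) (Nat.card Q)
      rw [hQc]; exact Nat.Coprime.pow_right _ hx₀p
  have hcentral : ∀ z ∈ Subgroup.zpowers x₀, ∀ ψ : IrrCharacter ↥(E ⊓ N), z • ψ = ψ := by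
    intro z hz ψ
    have hzc : z ∈ Subgroup.center E :=
      (Subgroup.zpowers_le.mpr hx₀c) hz
    apply Subtype.ext
    funext x
    rw [hact]
    apply congrArg
    apply Subtype.ext
    show (z : G)⁻¹ * (x : G) * (z : G) = (x : G)
    have h1 : (⟨(x : G), x.2.1⟩ : E) * z = z * ⟨(x : G), x.2.1⟩ :=
      Subgroup.mem_center_iff.mp hzc _
    have h2 : (x : G) * (z : G) = (z : G) * (x : G) := congrArg (fun e : E => (e : G)) h1
    rw [mul_assoc, h2, inv_mul_cancel_left]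
  have hfixE : ∀ g : E, g • φ = φ := by
    intro g
    obtain ⟨⟨z, q⟩, hzq, -⟩ := Subgroup.isComplement_iff_existsUnique.mp hcomp g
    have hzq' : (z : E) * (q : E) = g := hzq
    rw [← hzq', mul_smul]
    have h1 : (q : E) • φ = φ := hfix ⟨(q : E), q.2⟩
    rw [h1]
    exact hcentral z z.2 φ
  refine ⟨E, φ, ⟨x₀, hx₀c, hx₀p, k', hk'⟩, hEN, φ.2, ?_, a φ, ?_, ?_⟩
  · intro g hg x
    have h1 := congrArg (fun ψ : IrrCharacter ↥(E ⊓ N) => (ψ : ↥(E ⊓ N) → ℂ) x)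
      (hfixE ⟨g⁻¹, E.inv_mem hg⟩)
    simp only [hact] at h1
    rw [← h1]
    apply congrArg
    apply Subtype.ext
    show g * (x : G) * g⁻¹ = (g⁻¹)⁻¹ * (x : G) * g⁻¹
    rw [inv_inv]
  · intro h
    exact hnd (Dvd.dvd.mul_left h _)
  · exact ha φ

end Cfsg.Agent.Lib.Lead
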