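import Mathlib
import Cfsg.Agent.Lib.Lead.CharCons

set_option autoImplicit false

namespace Cfsg.Agent.Lib.Lead

open Module

section Split

variable {G : Type*} [Group G]
variable {V U W : Type*} [AddCommGroup V] [Module ℂ V] [AddCommGroup U] [Module ℂ U]
  [AddCommGroup W] [Module ℂ W]

/-- Splitting a representation along an equivariant retraction. -/
theorem exists_split (ρ : Representation ℂ G V) (τ : Representation ℂ G U)
    (i : Representation.IntertwiningMap τ ρ) (p : Representation.IntertwiningMap ρ τ)
    (hpi : ∀ u, p (i u) = u) : Nonempty (ρ.Equiv (τ.prod p.ker.toRepresentation)) := by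
  have hmem : ∀ v : V,
      (LinearMap.id - i.toLinearMap ∘ₗ p.toLinearMap : V →ₗ[ℂ] V) v ∈ p.ker.toSubmodule := by
    intro v
    show p.toLinearMap (v - i (p v)) = 0
    rw [map_sub]
    show p v - p (i (p v)) = 0
    rw [hpi, sub_self]
  let f : V →ₗ[ℂ] U × p.ker.toSubmodule :=
    p.toLinearMap.prod
      ((LinearMap.id - i.toLinearMap ∘ₗ p.toLinearMap : V →ₗ[ℂ] V).codRestrict
        p.ker.toSubmodule hmem)
  let g : U × p.ker.toSubmodule →ₗ[ℂ] V := i.toLinearMap.coprod p.ker.toSubmodule.subtype
  have hfg : f ∘ₗ g = LinearMap.id := by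
    apply LinearMap.ext
    rintro ⟨u, k⟩
    have hk : p (k : V) = 0 := k.2
    have h1 : g (u, k) = i u + (k : V) := by
      simp [g]
    apply Prod.ext
    · show p (g (u, k)) = u
      rw [h1, map_add, hpi, hk, add_zero]
    · apply Subtype.ext
      show g (u, k) - i (p (g (u, k))) = (k : V)
      rw [h1, map_add, hpi, hk, add_zero]
      abel
  have hgf : g ∘ₗ f = LinearMap.id := by
    apply LinearMap.ext
    intro v
    show i.toLinearMap (p v) + (v - i (p v)) = v
    show i (p v) + (v - i (p v)) = v
    abel
  refine ⟨Representation.Equiv.mk (LinearEquiv.ofLinearMap f g hfg hgf) ?_⟩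
  intro x
  apply LinearMap.ext
  intro v
  apply Prod.ext
  · show p (ρ x v) = τ x (p v)
    exact Representation.IntertwiningMap.isIntertwining _ _ p x v
  · apply Subtype.ext
    show ρ x v - i (p (ρ x v)) = ρ x (v - i (p v))
    rw [Representation.IntertwiningMap.isIntertwining _ _ p,
      Representation.IntertwiningMap.isIntertwining _ _ i, map_sub]

theorem character_prod [FiniteDimensional ℂ V] [FiniteDimensional ℂ U]
    (ρ : Representation ℂ G V) (τ : Representation ℂ G U) (g : G) :
    (ρ.prod τ).character g = ρ.character g + τ.character g := by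
  show LinearMap.trace ℂ _ ((ρ g).prodMap (τ g)) = _
  rw [LinearMap.trace_prodMap']
  rfl

theorem character_split [FiniteDimensional ℂ V] [FiniteDimensional ℂ U]
    (ρ : Representation ℂ G V) (τ : Representation ℂ G U)
    (i : Representation.IntertwiningMap τ ρ) (p : Representation.IntertwiningMap ρ τ)
    (hpi : ∀ u, p (i u) = u) (g : G) :
    ρ.character g = τ.character g + p.ker.toRepresentation.character g := by
  obtain ⟨φ⟩ := exists_split ρ τ i p hpi
  rw [Representation.char_iso φ, character_prod]

theorem equiv_of_split {K₁ K₂ : Type*} [AddCommGroup K₁] [Module ℂ K₁] [AddCommGroup K₂]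
    [Module ℂ K₂] (ρ : Representation ℂ G V) (σ : Representation ℂ G W)
    (τ : Representation ℂ G U) (κ₁ : Representation ℂ G K₁) (κ₂ : Representation ℂ G K₂)
    (φ₁ : ρ.Equiv (τ.prod κ₁)) (φ₂ : σ.Equiv (τ.prod κ₂)) (ψ : κ₁.Equiv κ₂) :
    Nonempty (ρ.Equiv σ) := by
  have e : (τ.prod κ₁).Equiv (τ.prod κ₂) :=
    Representation.Equiv.mk (LinearEquiv.prodCongr (LinearEquiv.refl ℂ U) ψ.toLinearEquiv) (by
      intro x
      apply LinearMap.ext
      rintro ⟨u, k⟩
      apply Prod.ext
      · rfl
      · show ψ.toLinearEquiv (κ₁ x k) = κ₂ x (ψ.toLinearEquiv k)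
        exact Representation.IntertwiningMap.isIntertwining _ _ ψ.toIntertwiningMap x k)
  exact ⟨(φ₁.trans e).trans φ₂.symm⟩

/-- Maschke: an injective intertwining map has an equivariant retraction. -/
theorem exists_retraction [Finite G] (ρ : Representation ℂ G V) (τ : Representation ℂ G U)
    (i : Representation.IntertwiningMap τ ρ) (hi : Function.Injective i) :
    ∃ p : Representation.IntertwiningMap ρ τ, ∀ u, p (i u) = u := by
  classical
  letI := Fintype.ofFinite G
  obtain ⟨p₀, hp₀⟩ := LinearMap.exists_leftInverse_of_injective i.toLinearMap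
    (LinearMap.ker_eq_bot.mpr hi)
  have hp₀' : ∀ u, p₀ (i u) = u := fun u => congrArg (fun F : U →ₗ[ℂ] U => F u) hp₀
  have hc : (Nat.card G : ℂ) ≠ 0 := by exact_mod_cast (Nat.card_pos (α := G)).ne'
  let P : V →ₗ[ℂ] U := (Nat.card G : ℂ)⁻¹ • ∑ g : G, (τ g⁻¹) ∘ₗ p₀ ∘ₗ (ρ g)
  have hP : ∀ v, P v = (Nat.card G : ℂ)⁻¹ • ∑ g : G, τ g⁻¹ (p₀ (ρ g v)) := by
    intro v
    simp [P, LinearMap.sum_apply]
  refine ⟨⟨P, ?_⟩, ?_⟩
  · intro h
    apply LinearMap.ext
    intro v
    show P (ρ h v) = τ h (P v)
    rw [hP, hP, map_smul, map_sum]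
    congr 1
    rw [← Fintype.sum_equiv (Equiv.mulRight h) (fun g => τ h (τ (g * h)⁻¹ (p₀ (ρ (g * h) v))))
      (fun g => τ h (τ g⁻¹ (p₀ (ρ g v)))) (fun g => rfl)]
    apply Finset.sum_congr rfl
    intro g _
    have e1 : ρ (g * h) v = ρ g (ρ h v) := by rw [map_mul]; rfl
    have e2 : ∀ w : U, τ h (τ (g * h)⁻¹ w) = τ (h * (g * h)⁻¹) w := by
      intro w
      rw [map_mul]; rfl
    rw [e2, e1]
    congr 2
    group
  · intro u
    show P (i u) = u
    rw [hP]
    have : ∀ g : G, τ g⁻¹ (p₀ (ρ g (i u))) = u := by
      intro g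
      rw [← Representation.IntertwiningMap.isIntertwining _ _ i, hp₀', ← Module.End.mul_apply,
        ← map_mul, inv_mul_cancel, map_one]
      rfl
    rw [Finset.sum_congr rfl (fun g _ => this g), Finset.sum_const, Finset.card_univ,
      ← Nat.card_eq_fintype_card, ← Nat.cast_smul_eq_nsmul ℂ, smul_smul, inv_mul_cancel₀ hc,
      one_smul]

end Split

section Main

universe u v w

theorem exists_injective_of_inner_ne_zero {G : Type u} [Group G] [Fintype G] {X : Type v}
    {U : Type w} [AddCommGroup X] [Module ℂ X] [FiniteDimensional ℂ X] [AddCommGroup U]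
    [Module ℂ U] [FiniteDimensional ℂ U] (τ : Representation ℂ G U) [τ.IsIrreducible]
    (π : Representation ℂ G X) (hne : Cfsg.classInner π.character τ.character ≠ 0) :
    ∃ i : Representation.IntertwiningMap τ π, Function.Injective i := by
  let _i : Invertible (Nat.card G : ℂ) := invertibleOfNonzero card_ne_zero_complex
  have h2 := Representation.card_inv_mul_sum_char_mul_char_eq_finrank τ π
  have h3 : (Nat.card G : ℂ)⁻¹ * ∑ g : G, π.character g * τ.character g⁻¹
      = Cfsg.classInner π.character τ.character := by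
    unfold Cfsg.classInner
    congr 1
    apply Finset.sum_congr rfl
    intro g _
    rw [char_inv τ g]
  rw [h3] at h2
  have h4 : 0 < finrank ℂ (Representation.IntertwiningMap τ π) := by
    rcases Nat.eq_zero_or_pos (finrank ℂ (Representation.IntertwiningMap τ π)) with h5 | h5
    · rw [h5] at h2
      exact absurd (by simpa using h2) hne
    · exact h5
  obtain ⟨f, hf⟩ := Module.finrank_pos_iff_exists_ne_zero.mp h4
  exact ⟨f, (Representation.IsIrreducible.injective_or_eq_zero f).resolve_right hf⟩

/-- Complex representations with equal characters are equivalent. -/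
theorem equiv_of_character_eq_aux {G : Type u} [Group G] [Finite G] (n : ℕ) :
    ∀ (V : Type v) (W : Type w) [AddCommGroup V] [Module ℂ V] [FiniteDimensional ℂ V]
      [AddCommGroup W] [Module ℂ W] [FiniteDimensional ℂ W] (ρ : Representation ℂ G V)
      (σ : Representation ℂ G W), finrank ℂ V = n → ρ.character = σ.character →
      Nonempty (ρ.Equiv σ) := by
  classical
  letI := Fintype.ofFinite G
  induction n using Nat.strong_induction_on with
  | _ n ih =>
    intro V W _ _ _ _ _ _ ρ σ hn h
    have hfin : finrank ℂ V = finrank ℂ W := by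
      have e1 := Representation.char_one ρ
      have e2 := Representation.char_one σ
      rw [h, e2] at e1
      exact_mod_cast e1.symm
    by_cases h0 : n = 0
    · subst h0
      haveI : Subsingleton V := Module.finrank_zero_iff.mp hn
      haveI : Subsingleton W := Module.finrank_zero_iff.mp (hfin ▸ hn)
      refine ⟨Representation.Equiv.mk (LinearEquiv.ofSubsingleton V W) ?_⟩
      intro g
      apply LinearMap.ext
      intro v
      exact Subsingleton.elim _ _
    · -- an irreducible constituent
      have hχ : Cfsg.IsCharacter G ρ.character := isCharacter_character ρ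
      have h1 : ρ.character 1 ≠ 0 := by
        rw [Representation.char_one, hn]
        exact_mod_cast h0
      obtain ⟨ψ, hψ⟩ := exists_irr_constituent hχ h1
      obtain ⟨k, τ, hirr, hτ⟩ := ψ.2
      haveI := hirr
      obtain ⟨i, hi⟩ := exists_injective_of_inner_ne_zero τ ρ (by rw [hτ]; exact hψ)
      obtain ⟨j, hj⟩ := exists_injective_of_inner_ne_zero τ σ (by rw [hτ, ← h]; exact hψ)
      obtain ⟨p, hp⟩ := exists_retraction ρ τ i hi
      obtain ⟨q, hq⟩ := exists_retraction σ τ j hj
      obtain ⟨φ₁⟩ := exists_split ρ τ i p hp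
      obtain ⟨φ₂⟩ := exists_split σ τ j q hq
      have hchar : p.ker.toRepresentation.character = q.ker.toRepresentation.character := by
        funext g
        have e1 := character_split ρ τ i p hp g
        have e2 := character_split σ τ j q hq g
        rw [h, e2] at e1
        exact (add_left_cancel e1).symm
      have hk : 0 < k := by
        have := finrank_pos_of_irreducible τ
        simpa using this
      have hlt : finrank ℂ p.ker.toSubmodule < n := by
        have e1 := character_split ρ τ i p hp 1
        rw [Representation.char_one, Representation.char_one, Representation.char_one, hn] at e1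
        have e2 : n = finrank ℂ (Fin k → ℂ) + finrank ℂ p.ker.toSubmodule := by
          exact_mod_cast e1
        rw [Module.finrank_fin_fun] at e2
        omega
      obtain ⟨ψ'⟩ := ih _ hlt _ _ p.ker.toRepresentation q.ker.toRepresentation rfl hchar
      exact equiv_of_split ρ σ τ _ _ φ₁ φ₂ ψ'

theorem equiv_of_character_eq {G : Type u} [Group G] [Finite G] {V : Type v} {W : Type w}
    [AddCommGroup V] [Module ℂ V] [FiniteDimensional ℂ V] [AddCommGroup W] [Module ℂ W]
    [FiniteDimensional ℂ W] (ρ : Representation ℂ G V) (σ : Representation ℂ G W)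
    (h : ρ.character = σ.character) : Nonempty (ρ.Equiv σ) :=
  equiv_of_character_eq_aux _ V W ρ σ rfl h

end Main

end Cfsg.Agent.Lib.Lead
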