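import Mathlib
import Cfsg.Agent.Lib.Lead.CharBasic
import Cfsg.Agent.Lib.Lead.CharGalois

namespace Cfsg.Agent.Lib.Lead

open Module Polynomial

/-- A sum of `t` roots of unity of `p`-power order with `p ∤ t` is nonzero. -/
theorem sum_prime_pow_roots_ne_zero {p a : ℕ} (hp : p.Prime) {ι : Type*} [Fintype ι] (μ : ι → ℂ)
    (h : ∀ i, μ i ^ (p ^ a) = 1) (hc : ¬ p ∣ Fintype.card ι) : ∑ i, μ i ≠ 0 := by
  classical
  haveI : Fact p.Prime := ⟨hp⟩
  rcases Nat.eq_zero_or_pos a with rfl | ha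
  · have h1 : ∀ i, μ i = 1 := fun i => by simpa using h i
    simp only [h1, Finset.sum_const, Finset.card_univ, nsmul_eq_mul, mul_one]
    intro h0
    have : Fintype.card ι = 0 := by exact_mod_cast h0
    exact hc (this ▸ dvd_zero p)
  · obtain ⟨b, rfl⟩ : ∃ b, a = b + 1 := ⟨a - 1, by omega⟩
    have hn : p ^ (b + 1) ≠ 0 := pow_ne_zero _ hp.ne_zero
    haveI : NeZero (p ^ (b + 1)) := ⟨hn⟩
    have hζ := Complex.isPrimitiveRoot_exp (p ^ (b + 1)) hn
    set ζ := Complex.exp (2 * ↑Real.pi * Complex.I / ↑(p ^ (b + 1))) with hζdef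
    have hk : ∀ i, ∃ k : ℕ, ζ ^ k = μ i := fun i => by
      obtain ⟨k, -, hk⟩ := hζ.eq_pow_of_pow_eq_one (h i)
      exact ⟨k, hk⟩
    choose k hk using hk
    intro h0
    set f : ℤ[X] := ∑ i, (X : ℤ[X]) ^ (k i) with hf
    have hf0 : aeval ζ f = 0 := by
      rw [hf, map_sum, ← h0]
      apply Finset.sum_congr rfl; intro i _
      rw [map_pow, aeval_X, hk]
    have hint : IsIntegral ℤ ζ := hζ.isIntegral (Nat.pos_of_ne_zero hn)
    have hdvd : minpoly ℤ ζ ∣ f := minpoly.isIntegrallyClosed_dvd hint hf0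
    rw [← cyclotomic_eq_minpoly hζ (Nat.pos_of_ne_zero hn)] at hdvd
    obtain ⟨q, hq⟩ := hdvd
    have h1 : eval 1 f = (Fintype.card ι : ℤ) := by
      rw [hf, eval_finset_sum]
      simp
    have h2 : eval 1 f = (p : ℤ) * eval 1 q := by
      rw [hq, eval_mul, eval_one_cyclotomic_prime_pow]
    have h3 : (p : ℤ) ∣ (Fintype.card ι : ℤ) := ⟨eval 1 q, by rw [← h1, h2]⟩
    exact hc (by exact_mod_cast h3)

/-- A character of degree prime to `p` does not vanish at `p`-elements. -/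
theorem char_ne_zero_of_pow_prime_pow_eq_one {G : Type*} [Group G] [Finite G] {V : Type*}
    [AddCommGroup V] [Module ℂ V] [FiniteDimensional ℂ V] (ρ : Representation ℂ G V)
    {p a : ℕ} (hp : p.Prime) (x : G) (hx : x ^ (p ^ a) = 1) (hdeg : ¬ p ∣ finrank ℂ V) :
    ρ.character x ≠ 0 := by
  obtain ⟨ι, _, b, μ, h1, h2⟩ := exists_eigen_data ρ x
  have e1 : ρ.character x = ∑ i, μ i := trace_eq_sum_of_eigenbasis b (ρ x) μ h1
  rw [e1]
  apply sum_prime_pow_roots_ne_zero hp μ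
  · intro i
    obtain ⟨c, hc⟩ := orderOf_dvd_of_pow_eq_one hx
    rw [hc, pow_mul, h2 i, one_pow]
  · rw [← Module.finrank_eq_card_basis b]; exact hdeg

end Cfsg.Agent.Lib.Lead
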