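import Cfsg.Agent.Lib.Lead.CharChief
import Cfsg.Agent.S0857

set_option autoImplicit false
open Cfsg
open scoped ComplexConjugate
open Module

namespace Cfsg.Agent.Lib.Lead

open Cfsg.Agent.Lib.Helper2

universe u

/-- A chief factor of `G` above `N`, with `G/N` solvable, is abelian. -/
theorem commutator_le_of_chief {G : Type*} [Group G] (N : Subgroup G) [N.Normal]
    (hsolv : Group.IsSolvable (G ⧸ N)) (K L : Subgroup G) [hK : K.Normal] [hL : L.Normal] (hNL : N ≤ L)
    (hLK : L < K)
    (hch : ∀ M : Subgroup G, M.Normal → L ≤ M → M ≤ K → M = L ∨ M = K) : ⁅K, K⁆ ≤ L := by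
  have hM : (⁅K, K⁆ ⊔ L).Normal := inferInstance
  rcases hch (⁅K, K⁆ ⊔ L) hM le_sup_right (sup_le (Subgroup.commutator_le_left K K) hLK.le)
    with h | h
  · rw [← h]; exact le_sup_left
  · exfalso
    have hstep : ∀ D : Subgroup G, ⁅D ⊔ L, D ⊔ L⁆ ≤ ⁅D, D⁆ ⊔ L := by
      intro D
      have h1 : (⁅D ⊔ L, D ⊔ L⁆).map (QuotientGroup.mk' L) = (⁅D, D⁆).map (QuotientGroup.mk' L) := by
        rw [Subgroup.map_commutator, Subgroup.map_commutator, Subgroup.map_sup]
        have : L.map (QuotientGroup.mk' L) = ⊥ := by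
          rw [Subgroup.map_eq_bot_iff, QuotientGroup.ker_mk']
        rw [this, sup_bot_eq]
      have h2 : ⁅D ⊔ L, D ⊔ L⁆ ≤ (⁅D, D⁆.map (QuotientGroup.mk' L)).comap (QuotientGroup.mk' L) := by
        rw [← h1]; exact Subgroup.le_comap_map _ _
      rw [Subgroup.comap_map_eq, QuotientGroup.ker_mk'] at h2
      exact h2
    have hall : ∀ m : ℕ, K ≤ derivedSeries G m ⊔ L := by
      intro m
      induction m with
      | zero => rw [derivedSeries_zero]; simp
      | succ m ih =>
        rw [derivedSeries_succ]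
        calc K = ⁅K, K⁆ ⊔ L := h.symm
          _ ≤ ⁅derivedSeries G m ⊔ L, derivedSeries G m ⊔ L⁆ ⊔ L :=
            sup_le_sup_right (Subgroup.commutator_mono ih ih) L
          _ ≤ (⁅derivedSeries G m, derivedSeries G m⁆ ⊔ L) ⊔ L := sup_le_sup_right (hstep _) L
          _ = ⁅derivedSeries G m, derivedSeries G m⁆ ⊔ L := by rw [sup_assoc, sup_idem]
    obtain ⟨n, hn⟩ := (Group.isSolvable_def (G ⧸ N)).mp hsolv
    have hDN : derivedSeries G n ≤ N := by
      have h1 := map_derivedSeries_eq (f := QuotientGroup.mk' N) (QuotientGroup.mk'_surjective N) n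
      rw [hn, Subgroup.map_eq_bot_iff, QuotientGroup.ker_mk'] at h1
      exact h1
    have : K ≤ L := (hall n).trans (sup_le (hDN.trans hNL) le_rfl)
    exact absurd (le_antisymm hLK.le this) hLK.ne

section Step

variable {G : Type*} [Group G] [Fintype G]

/-- The step in the relative M-group theorem: a character not restricting irreducibly to `N`
is induced from a proper subgroup containing `N`. -/
theorem relM_step (N : Subgroup G) [N.Normal] (hsolv : Group.IsSolvable (G ⧸ N))
    (hchief : ∀ (K L : Subgroup G), K.Normal → L.Normal → N ≤ L → L < K →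
      (∀ M : Subgroup G, M.Normal → L ≤ M → M ≤ K → M = L ∨ M = K) →
      ¬ IsSquare (L.relIndex K))
    {χ : G → ℂ} (hχ : IsIrrCharacter G χ) (hred : ¬ IsIrrCharacter N (fun n : N => χ n)) :
    ∃ (T : Subgroup G) (η : T → ℂ), N ≤ T ∧ T ≠ ⊤ ∧ IsIrrCharacter T η ∧ indFun T η = χ := by
  classical
  letI : Fintype (Subgroup G) := Fintype.ofFinite _
  have hcf := isClassFunction_irr (⟨χ, hχ⟩ : IrrCharacter G)
  -- minimal normal K ≥ N with χ|K irreducible
  let sK : Finset (Subgroup G) := Finset.univ.filter
    (fun K => K.Normal ∧ N ≤ K ∧ IsIrrCharacter K (fun k : K => χ k))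
  have htop : (⊤ : Subgroup G) ∈ sK := by
    rw [Finset.mem_filter]
    refine ⟨Finset.mem_univ _, inferInstance, le_top, ?_⟩
    exact isIrrCharacter_comp_of_surjective hχ (⊤ : Subgroup G).subtype
      (fun g => ⟨⟨g, Subgroup.mem_top g⟩, rfl⟩)
  obtain ⟨K, hKs, hKmin⟩ := Finset.exists_min_image sK (fun K => Nat.card K) ⟨⊤, htop⟩
  obtain ⟨-, hKn, hNK, hKirr⟩ := Finset.mem_filter.mp hKs
  haveI := hKn
  have hNKlt : N < K := by
    refine lt_of_le_of_ne hNK ?_
    rintro rfl
    exact hred hKirr
  -- maximal normal L with N ≤ L < K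
  let sL : Finset (Subgroup G) := Finset.univ.filter (fun L => L.Normal ∧ N ≤ L ∧ L < K)
  have hNs : N ∈ sL := by
    rw [Finset.mem_filter]
    exact ⟨Finset.mem_univ _, inferInstance, le_rfl, hNKlt⟩
  obtain ⟨L, hLs, hLmax⟩ := Finset.exists_max_image sL (fun L => Nat.card L) ⟨N, hNs⟩
  obtain ⟨-, hLn, hNL, hLK⟩ := Finset.mem_filter.mp hLs
  haveI := hLn
  have hch : ∀ M : Subgroup G, M.Normal → L ≤ M → M ≤ K → M = L ∨ M = K := by
    intro M hM hLM hMK
    by_cases hMK' : M = K
    · exact Or.inr hMK'
    · left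
      have hMs : M ∈ sL := by
        rw [Finset.mem_filter]
        exact ⟨Finset.mem_univ _, hM, hNL.trans hLM, lt_of_le_of_ne hMK hMK'⟩
      exact (Subgroup.eq_of_le_of_card_ge hLM (hLmax M hMs)).symm
  have hLred : ¬ IsIrrCharacter L (fun x : L => χ x) := by
    intro h
    have hLsK : L ∈ sK := by
      rw [Finset.mem_filter]
      exact ⟨Finset.mem_univ _, hLn, hNL, h⟩
    have := hKmin L hLsK
    exact hLK.ne (Subgroup.eq_of_le_of_card_ge hLK.le this)
  have hab := commutator_le_of_chief N hsolv K L hNL hLK hch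
  have htri := Cfsg.Agent.S0857.result K L hLK hch hab (fun k : K => χ k) hKirr
    (fun g n => hcf n g)
  have hnsq := hchief K L hKn hLn hNL hLK hch
  rcases htri with h | ⟨φ, e, -, -, hidx⟩ | ⟨F, hF, -, hsum⟩
  · exact absurd h hLred
  · exact absurd ⟨e, by rw [← hidx, sq]⟩ hnsq
  · have hsum' : (fun x : L => χ x) = ∑ φ ∈ F, φ := hsum
    have hFne : F.Nonempty := by
      rw [Finset.nonempty_iff_ne_empty]
      rintro rfl
      rw [Finset.sum_empty] at hsum'
      have := congrFun hsum' 1
      exact isIrrCharacter_one_ne_zero hχ (by simpa using this)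
    obtain ⟨φ₁, hφ₁⟩ := hFne
    have hφ₁irr := hF φ₁ hφ₁
    letI : Fintype L := Fintype.ofFinite L
    have hinner : classInner (fun x : L => χ x) φ₁ = 1 := by
      rw [hsum', classInner_sum_left]
      rw [Finset.sum_congr rfl (fun φ hφ => irr_orthonormal (hF φ hφ) hφ₁irr)]
      rw [Finset.sum_ite_eq' F φ₁, if_pos hφ₁]
    have hcon : classInner (fun x : L => χ x) φ₁ ≠ 0 := by rw [hinner]; exact one_ne_zero
    let T := charInertia L φ₁
    have hLT : L ≤ T := le_charInertia L (isClassFunction_irr ⟨φ₁, hφ₁irr⟩)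
    letI : Fintype T := Fintype.ofFinite T
    obtain ⟨η, hη, hind, -⟩ := clifford_corr_surj L T hLT hφ₁irr
      (fun g => mem_charInertia L _ g) hχ hcon
    refine ⟨T, η, hNL.trans hLT, ?_, hη, hind⟩
    intro hT
    apply hLred
    have hcl := clifford L hχ hφ₁irr hcon
    have hO : conjFinset L φ₁ = {φ₁} := by
      ext φ
      rw [mem_conjFinset, Finset.mem_singleton]
      constructor
      · rintro ⟨g, rfl⟩
        funext h
        have : g ∈ T := by rw [hT]; trivial
        exact (mem_charInertia L _ g).mp this h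
      · intro h; exact ⟨1, by rw [h, twist_one]⟩
    rw [hO, Finset.sum_singleton, hinner, one_smul] at hcl
    rw [hcl]; exact hφ₁irr

end Step

/-- Relative M-groups (Isaacs 6.22), by induction on the group order. -/
theorem relM_aux (n : ℕ) : ∀ (G : Type u) [Group G] [Fintype G] (N : Subgroup G) [N.Normal],
    Nat.card G ≤ n → Group.IsSolvable (G ⧸ N) →
    (∀ (H K L : Subgroup G), N ≤ L → L < K → K ≤ H → (∀ h ∈ H, ∀ k ∈ K, h * k * h⁻¹ ∈ K) →
      (∀ h ∈ H, ∀ l ∈ L, h * l * h⁻¹ ∈ L) →
      (∀ M : Subgroup G, L ≤ M → M ≤ K → (∀ h ∈ H, ∀ m ∈ M, h * m * h⁻¹ ∈ M) → M = L ∨ M = K) →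
      ¬ IsSquare (L.relIndex K)) →
    ∀ χ : G → ℂ, IsIrrCharacter G χ →
      ∃ (H : Subgroup G) (hNH : N ≤ H) (ψ : H → ℂ), IsIrrCharacter H ψ ∧ indFun H ψ = χ ∧
        IsIrrCharacter N (fun n : N => ψ ⟨(n : G), hNH n.2⟩) := by
  induction n with
  | zero =>
    intro G _ _ N _ hcard
    exact absurd hcard (by have := Nat.card_pos (α := G); omega)
  | succ n ih =>
    intro G _ _ N _ hcard hsolv hchief χ hχ
    classical
    by_cases hred : IsIrrCharacter N (fun n : N => χ n)
    · refine ⟨⊤, le_top, fun h => χ h, ?_, indFun_top χ (isClassFunction_irr ⟨χ, hχ⟩), hred⟩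
      exact isIrrCharacter_comp_of_surjective hχ (⊤ : Subgroup G).subtype
        (fun g => ⟨⟨g, Subgroup.mem_top g⟩, rfl⟩)
    · obtain ⟨T, η, hNT, hT, hη, hind⟩ := relM_step N hsolv (by
        intro K L hK hL hNL hLK hch
        exact hchief ⊤ K L hNL hLK le_top (fun h _ k hk => hK.conj_mem k hk h)
          (fun h _ l hl => hL.conj_mem l hl h)
          (fun M hLM hMK hMinv => hch M ⟨fun m hm g => hMinv g (Subgroup.mem_top g) m hm⟩ hLM hMK))
        hχ hred
      letI : Fintype T := Fintype.ofFinite T
      have hTcard : Nat.card T ≤ n := by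
        have hle := Subgroup.card_le_card_group T
        have hne : Nat.card T ≠ Nat.card G := fun h => hT (Subgroup.eq_top_of_card_eq T h)
        omega
      -- solvability of T / (N ∩ T)
      have hsolv' : Group.IsSolvable (T ⧸ N.subgroupOf T) := by
        let f : T →* G ⧸ N := (QuotientGroup.mk' N).comp T.subtype
        have hker : f.ker = N.subgroupOf T := by
          ext t
          rw [MonoidHom.mem_ker, Subgroup.mem_subgroupOf]
          show (QuotientGroup.mk' N) (t : G) = 1 ↔ _
          rw [QuotientGroup.mk'_apply, QuotientGroup.eq_one_iff]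
        haveI := hsolv
        haveI : Group.IsSolvable (T ⧸ f.ker) :=
          Group.isSolvable_of_isSolvable_injective (QuotientGroup.kerLift_injective f)
        exact Group.isSolvable_of_isSolvable_injective
          (f := (QuotientGroup.quotientMulEquivOfEq hker).symm.toMonoidHom)
          (QuotientGroup.quotientMulEquivOfEq hker).symm.injective
      have hchief' : ∀ (H K L : Subgroup T), N.subgroupOf T ≤ L → L < K → K ≤ H →
          (∀ h ∈ H, ∀ k ∈ K, h * k * h⁻¹ ∈ K) → (∀ h ∈ H, ∀ l ∈ L, h * l * h⁻¹ ∈ L) →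
          (∀ M : Subgroup T, L ≤ M → M ≤ K → (∀ h ∈ H, ∀ m ∈ M, h * m * h⁻¹ ∈ M) →
            M = L ∨ M = K) → ¬ IsSquare (L.relIndex K) := by
        intro H K L hN'L hLK hKH hHK hHL hch
        have hmapconj : ∀ X : Subgroup T, (∀ h ∈ H, ∀ k ∈ X, h * k * h⁻¹ ∈ X) →
            ∀ h ∈ H.map T.subtype, ∀ k ∈ X.map T.subtype, h * k * h⁻¹ ∈ X.map T.subtype := by
          rintro X hX _ ⟨h, hh, rfl⟩ _ ⟨k, hk, rfl⟩
          exact ⟨h * k * h⁻¹, hX h hh k hk, by simp⟩
        have := hchief (H.map T.subtype) (K.map T.subtype) (L.map T.subtype)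
          (by
            intro x hx
            exact ⟨⟨x, hNT hx⟩, hN'L (Subgroup.mem_subgroupOf.mpr hx), rfl⟩)
          ((Subgroup.map_lt_map_iff_of_injective T.subtype_injective).mpr hLK)
          (Subgroup.map_mono hKH) (hmapconj K hHK) (hmapconj L hHL)
          (by
            intro M hLM hMK hMinv
            have hMT : M ≤ T.subtype.range := by
              rw [Subgroup.range_subtype]
              intro m hm
              obtain ⟨k, _, rfl⟩ := hMK hm
              exact k.2
            have hMeq := Subgroup.map_comap_eq_self hMT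
            rcases hch (M.comap T.subtype)
              (by
                intro l hl
                exact hLM ⟨l, hl, rfl⟩)
              (by
                intro m hm
                obtain ⟨k, hk, hkm⟩ := hMK (show T.subtype m ∈ M from hm)
                have : k = m := Subtype.ext hkm
                rw [← this]; exact hk)
              (by
                intro h hh m hm
                show T.subtype (h * m * h⁻¹) ∈ M
                rw [map_mul, map_mul, map_inv]
                exact hMinv _ ⟨h, hh, rfl⟩ _ hm) with h1 | h1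
            · left; rw [← hMeq, h1]
            · right; rw [← hMeq, h1])
        rw [Subgroup.relIndex_map_map_of_injective L K T.subtype_injective] at this
        exact this
      obtain ⟨H', hN'H', ψ, hψ, hindψ, hψN⟩ := ih T (N.subgroupOf T) hTcard hsolv' hchief' η hη
      have hHT : H'.map T.subtype ≤ T := by
        rintro _ ⟨y, _, rfl⟩; exact y.2
      let e : (H'.map T.subtype) ≃* H' :=
        (H'.equivMapOfInjective T.subtype T.subtype_injective).symm
      have hNH : N ≤ H'.map T.subtype := by
        intro x hx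
        exact ⟨⟨x, hNT hx⟩, hN'H' (Subgroup.mem_subgroupOf.mpr hx), rfl⟩
      refine ⟨H'.map T.subtype, hNH, ψ ∘ e, ?_, ?_, ?_⟩
      · exact isIrrCharacter_comp_of_surjective hψ e.toMonoidHom e.surjective
      · rw [← hind, ← hindψ, ← indFun_trans (H'.map T.subtype) T hHT]
        congr 1
        apply indFun_congr_subgroup
          (Subgroup.comap_map_eq_self_of_injective T.subtype_injective H')
        intro y h1 h2
        show ψ (e ⟨(y : G), _⟩) = ψ ⟨y, h2⟩
        congr 1
        apply e.symm.injective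
        rw [MulEquiv.symm_apply_apply]
        rfl
      · let g : N →* N.subgroupOf T := (Subgroup.subgroupOfEquivOfLe hNT).symm.toMonoidHom
        have hg : Function.Surjective g := (Subgroup.subgroupOfEquivOfLe hNT).symm.surjective
        have h1 := isIrrCharacter_comp_of_surjective hψN g hg
        have h2 : (fun n : N => (ψ ∘ e) ⟨(n : G), hNH n.2⟩) =
            (fun n' : N.subgroupOf T => ψ ⟨(n' : T), hN'H' n'.2⟩) ∘ g := by
          funext x
          show ψ (e ⟨(x : G), _⟩) = ψ ⟨(g x : T), _⟩
          congr 1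
          apply e.symm.injective
          rw [MulEquiv.symm_apply_apply]
          rfl
        rw [h2]; exact h1

end Cfsg.Agent.Lib.Lead
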