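import Mathlib
import Cfsg.Agent.Lib.Lead.QuatSyl4
import Cfsg.Agent.Lib.Lead.CharDet

set_option autoImplicit false
set_option maxHeartbeats 1600000

namespace Cfsg.Agent.Lib.Lead

open Cfsg
open Cfsg.Agent.Lib.Helper2 (irr_one_ne_zero irr_degree_pos)
open scoped ComplexConjugate

universe u

/-- Multiplying by an element of the kernel does not change a character value. -/
theorem char_mul_ker {G : Type u} [Group G] [Finite G] {χ : G → ℂ} (hχ : IsCharacter G χ) {m : G}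
    (hm : χ m = χ 1) (g : G) : χ (g * m) = χ g := by
  obtain ⟨n, ρ, rfl⟩ := hχ
  rw [Representation.char_one, char_eq_finrank_iff] at hm
  show LinearMap.trace ℂ _ (ρ (g * m)) = LinearMap.trace ℂ _ (ρ g)
  rw [map_mul, hm]
  rfl

/-- The common kernel of the two exceptional characters has index divisible by four. -/
theorem qs_index_four {G : Type u} [Group G] [Fintype G] (χ₁ χ₂ : G → ℂ)
    (h₁ : IsIrrCharacter G χ₁) (h₂ : IsIrrCharacter G χ₂) (hdeg : χ₁ 1 = χ₂ 1 + 1)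
    (hval : ∀ g : G, ¬ 4 ∣ orderOf g → χ₁ g - χ₂ g = 1) (M : Subgroup G) [hM : M.Normal]
    (hM₁ : ∀ m ∈ M, χ₁ m = χ₁ 1) (hM₂ : ∀ m ∈ M, χ₂ m = χ₂ 1) : 4 ∣ M.index := by
  classical
  by_contra h4
  haveI : Fact (Nat.Prime 2) := ⟨Nat.prime_two⟩
  obtain ⟨P⟩ : Nonempty (Sylow 2 (G ⧸ M)) := inferInstance
  have hPcard : Nat.card (P : Subgroup (G ⧸ M)) ∣ 2 := by
    obtain ⟨k, hk⟩ := P.2.exists_card_eq
    have h1 : Nat.card (P : Subgroup (G ⧸ M)) ∣ Nat.card (G ⧸ M) :=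
      Subgroup.card_subgroup_dvd_card _
    have h2 : Nat.card (G ⧸ M) = M.index := rfl
    rw [hk, h2] at h1
    rw [hk]
    have hk1 : k ≤ 1 := by
      by_contra hcon
      push Not at hcon
      apply h4
      have h3 : 2 ^ 2 ∣ 2 ^ k := pow_dvd_pow 2 hcon
      exact (by norm_num : (4 : ℕ) = 2 ^ 2) ▸ h3.trans h1
    have h3 : 2 ^ k ∣ 2 ^ 1 := pow_dvd_pow 2 hk1
    simpa using h3
  have hPcyc : IsCyclic (P : Subgroup (G ⧸ M)) := isCyclic_of_card_dvd_prime (p := 2) hPcard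
  obtain ⟨Kb, hKn, hKcompl, hKmem⟩ := cyc_syl2_complement P hPcyc
  have hKidx : Kb.index ∣ 2 := by
    rw [hKcompl.symm.index_eq_card]; exact hPcard
  obtain ⟨U, hU⟩ : ∃ U : Subgroup G, U = Kb.comap (QuotientGroup.mk' M) := ⟨_, rfl⟩
  have hUidx : U.index ∣ 2 := by
    rw [hU, Subgroup.index_comap_of_surjective Kb (QuotientGroup.mk'_surjective M)]
    exact hKidx
  -- values on `U`
  have hUval : ∀ g ∈ U, χ₁ g - χ₂ g = 1 := by
    intro g hg
    rw [hU, Subgroup.mem_comap, hKmem] at hg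
    obtain ⟨k, hk⟩ : ∃ k, k = orderOf (QuotientGroup.mk' M g) := ⟨_, rfl⟩
    rw [← hk] at hg
    obtain ⟨a, r, hr, har⟩ := Nat.exists_eq_two_pow_mul_odd (orderOf_pos g).ne'
    have hcop : Nat.Coprime (2 ^ a) k := Nat.Coprime.pow_left _ (Nat.coprime_two_left.mpr hg)
    obtain ⟨m, hm1, hm2⟩ := Nat.chineseRemainder hcop 0 1
    have h1 : (QuotientGroup.mk' M g) ^ m = QuotientGroup.mk' M g := by
      have := (pow_eq_pow_iff_modEq (x := QuotientGroup.mk' M g) (n := m) (m := 1)).mpr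
        (by rw [← hk]; exact hm2)
      rwa [pow_one] at this
    have hmem : g⁻¹ * g ^ m ∈ M := by
      have h2 : QuotientGroup.mk' M (g⁻¹ * g ^ m) = 1 := by
        rw [map_mul, map_inv, map_pow, h1, inv_mul_cancel]
      exact (QuotientGroup.eq_one_iff _).mp h2
    have hodd : ¬ 4 ∣ orderOf (g ^ m) := by
      intro h
      have h2 : orderOf (g ^ m) ∣ r := by
        apply orderOf_dvd_of_pow_eq_one
        rw [← pow_mul]
        apply orderOf_dvd_iff_pow_eq_one.mp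
        rw [har]
        exact mul_dvd_mul_right ((Nat.modEq_zero_iff_dvd).mp hm1) r
      have h3 : 2 ∣ r := (by norm_num : 2 ∣ 4).trans (h.trans h2)
      exact (Nat.not_even_iff_odd.mpr hr) (even_iff_two_dvd.mpr h3)
    have e1 : g ^ m = g * (g⁻¹ * g ^ m) := by group
    have hv := hval (g ^ m) hodd
    rw [e1, char_mul_ker (isCharacter_of_isIrrCharacter h₁) (hM₁ _ hmem),
      char_mul_ker (isCharacter_of_isIrrCharacter h₂) (hM₂ _ hmem)] at hv
    exact hv
  -- the sign character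
  obtain ⟨ε, hε⟩ : ∃ ε : G →* ℂˣ, ∀ g, g ∈ U ∨ (ε g : ℂ) = -1 := by
    rcases (Nat.dvd_prime Nat.prime_two).mp hUidx with h | h
    · refine ⟨1, fun g => Or.inl ?_⟩
      rw [Subgroup.index_eq_one.mp h]; exact Subgroup.mem_top g
    · refine ⟨MonoidHom.mk' (fun g => if g ∈ U then 1 else -1) ?_, ?_⟩
      · intro a b
        have := Subgroup.mul_mem_iff_of_index_two h (a := a) (b := b)
        by_cases ha : a ∈ U <;> by_cases hb : b ∈ U <;> simp [ha, hb, this]
      · intro g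
        by_cases hg : g ∈ U
        · exact Or.inl hg
        · right
          show (((if g ∈ U then (1 : ℂˣ) else -1) : ℂˣ) : ℂ) = -1
          rw [if_neg hg]; simp
  obtain ⟨d₂, hd₂pos, hd₂⟩ := irr_degree_pos h₂
  have hd₁ : χ₁ 1 = ((d₂ + 1 : ℕ) : ℂ) := by rw [hdeg, hd₂]; push_cast; rfl
  have hεirr : IsIrrCharacter G (fun g => (ε g : ℂ)) := isIrrCharacter_of_hom ε
  have hε₁ : IsIrrCharacter G (fun g => (ε g : ℂ) * χ₁ g) := (twist_linear h₁ ε (d₂ + 1) hd₁).1
  have hε₂ : IsIrrCharacter G (fun g => (ε g : ℂ) * χ₂ g) := (twist_linear h₂ ε d₂ hd₂).1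
  have hzero : (χ₁ - χ₂ - (fun _ => (1 : ℂ))) + ((fun g => (ε g : ℂ) * χ₁ g) -
      (fun g => (ε g : ℂ) * χ₂ g) - (fun g => (ε g : ℂ))) = 0 := by
    ext g
    simp only [Pi.add_apply, Pi.sub_apply, Pi.zero_apply]
    rcases hε g with hg | hg
    · have := hUval g hg
      linear_combination (1 + (ε g : ℂ)) * this
    · rw [hg]; ring
  have hin : classInner ((χ₁ - χ₂ - (fun _ => (1 : ℂ))) + ((fun g => (ε g : ℂ) * χ₁ g) -
      (fun g => (ε g : ℂ) * χ₂ g) - (fun g => (ε g : ℂ)))) χ₁ = classInner (0 : G → ℂ) χ₁ := by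
    rw [hzero]
  have hd0 : χ₂ 1 ≠ 0 := irr_one_ne_zero h₂
  have hne1 : χ₂ ≠ χ₁ := by
    intro h
    have := congrFun h 1
    rw [hdeg] at this
    exact one_ne_zero (by linear_combination -this)
  have hne2 : (fun _ => (1 : ℂ)) ≠ χ₁ := by
    intro h
    have := congrFun h 1
    rw [hdeg] at this
    exact hd0 (by linear_combination -this)
  have hne3 : (fun g => (ε g : ℂ) * χ₂ g) ≠ χ₁ := by
    intro h
    have := congrFun h 1
    simp only [map_one, Units.val_one, one_mul] at this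
    rw [hdeg] at this
    exact one_ne_zero (by linear_combination -this)
  have hne4 : (fun g => (ε g : ℂ)) ≠ χ₁ := by
    intro h
    have := congrFun h 1
    simp only [map_one, Units.val_one] at this
    rw [hdeg] at this
    exact hd0 (by linear_combination -this)
  rw [classInner_add_left, classInner_sub_left, classInner_sub_left, classInner_sub_left,
    classInner_sub_left, classInner_zero_left, irr_orthonormal h₁ h₁, irr_orthonormal h₂ h₁,
    irr_orthonormal (isIrrCharacter_one G) h₁, irr_orthonormal hε₁ h₁, irr_orthonormal hε₂ h₁,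
    irr_orthonormal hεirr h₁, if_pos rfl, if_neg hne1, if_neg hne2, if_neg hne3,
    if_neg hne4] at hin
  split_ifs at hin <;> norm_num at hin

open scoped Pointwise in
/-- The Sylow `2`-subgroups of the subgroup generated by the involutions are cyclic. -/
theorem qs_involution_closure_cyclic {G : Type u} [Group G] [Finite G] (S : Sylow 2 G) (n : ℕ)
    (e : (S : Subgroup G) ≃* QuaternionGroup (2 ^ (n + 2)))
    (Q : Sylow 2 ↥(Subgroup.closure {g : G | orderOf g = 2})) : IsCyclic Q := by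
  classical
  letI : Fintype G := Fintype.ofFinite G
  haveI : Fact (Nat.Prime 2) := ⟨Nat.prime_two⟩
  obtain ⟨χ₁, χ₂, h₁, h₂, -, -, hdeg, hval⟩ := qs_chars S n e
  obtain ⟨M₁, hM₁n, hM₁mem, -⟩ := irr_ker_exists (⟨χ₁, h₁⟩ : IrrCharacter G)
  obtain ⟨M₂, hM₂n, hM₂mem, -⟩ := irr_ker_exists (⟨χ₂, h₂⟩ : IrrCharacter G)
  obtain ⟨M, hM⟩ : ∃ M : Subgroup G, M = M₁ ⊓ M₂ := ⟨_, rfl⟩
  haveI hMn : M.Normal := by rw [hM]; infer_instance
  have hMχ₁ : ∀ m ∈ M, χ₁ m = χ₁ 1 := by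
    intro m hm
    rw [hM] at hm
    exact (hM₁mem m).mp hm.1
  have hMχ₂ : ∀ m ∈ M, χ₂ m = χ₂ 1 := by
    intro m hm
    rw [hM] at hm
    exact (hM₂mem m).mp hm.2
  have hidx4 : 4 ∣ M.index := qs_index_four χ₁ χ₂ h₁ h₂ hdeg hval M hMχ₁ hMχ₂
  obtain ⟨x, hxS, hxo, -, hSx, hcard⟩ := qs_structure (S : Subgroup G) n e
  have hx2o : orderOf (x ^ 2) = 2 ^ (n + 2) := by
    rw [orderOf_pow, hxo]
    have h1 : Nat.gcd (2 ^ (n + 3)) 2 = 2 := by
      apply Nat.gcd_eq_right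
      exact dvd_pow_self 2 (by omega)
    rw [h1, pow_succ]
    exact Nat.mul_div_cancel _ (by norm_num)
  have hA : ∀ s ∈ (S : Subgroup G), s ∈ M → s ∈ Subgroup.zpowers x := by
    intro s hsS hsM
    by_contra hsx
    have hsinv : s * x * s⁻¹ = x⁻¹ := ((hSx s hsS).resolve_left hsx).1
    have hx2M : x ^ 2 ∈ M := by
      have e2 : s * x⁻¹ * s⁻¹ = x := by
        have e3 : s * x⁻¹ * s⁻¹ = (s * x * s⁻¹)⁻¹ := by group
        rw [e3, hsinv, inv_inv]
      have e1 : x ^ 2 = (x * s * x⁻¹) * s⁻¹ := by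
        calc x ^ 2 = x * (s * x⁻¹ * s⁻¹) := by rw [e2, sq]
          _ = (x * s * x⁻¹) * s⁻¹ := by group
      rw [e1]
      exact M.mul_mem (hMn.conj_mem s hsM x) (M.inv_mem hsM)
    have hle : Subgroup.zpowers (x ^ 2) ≤ (S : Subgroup G) ⊓ M := by
      rw [Subgroup.zpowers_le]
      exact ⟨Subgroup.pow_mem _ hxS 2, hx2M⟩
    have hlt : Subgroup.zpowers (x ^ 2) ≠ (S : Subgroup G) ⊓ M := by
      intro heq
      apply hsx
      have h1 : s ∈ Subgroup.zpowers (x ^ 2) := by rw [heq]; exact ⟨hsS, hsM⟩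
      exact (Subgroup.zpowers_le.mpr (Subgroup.pow_mem _ (Subgroup.mem_zpowers x) 2)) h1
    have hTcard : 2 ^ (n + 3) ∣ Nat.card ↥((S : Subgroup G) ⊓ M) := by
      have h1 : Nat.card ↥((S : Subgroup G) ⊓ M) ∣ 2 ^ (n + 4) := by
        rw [← hcard]; exact Subgroup.card_dvd_of_le inf_le_left
      obtain ⟨j, hj, hjc⟩ := (Nat.dvd_prime_pow Nat.prime_two).mp h1
      have h2 : 2 ^ (n + 2) < Nat.card ↥((S : Subgroup G) ⊓ M) := by
        rw [← hx2o, ← Nat.card_zpowers]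
        by_contra hcon
        push Not at hcon
        exact hlt (Subgroup.eq_of_le_of_card_ge hle hcon)
      rw [hjc] at h2 ⊢
      have h3 : n + 2 < j := (Nat.pow_lt_pow_iff_right (by norm_num)).mp h2
      exact pow_dvd_pow 2 (by omega)
    have h3 : 2 ^ (n + 3) ∣ Nat.card M := hTcard.trans (Subgroup.card_dvd_of_le inf_le_right)
    have h4 : 2 ^ (n + 3) * 4 ∣ Nat.card M * M.index := Nat.mul_dvd_mul h3 hidx4
    rw [Subgroup.card_mul_index, ← Subgroup.card_mul_index (S : Subgroup G), hcard] at h4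
    have h5 : 2 ^ (n + 4) * 2 ∣ 2 ^ (n + 4) * (S : Subgroup G).index := by
      have e1 : 2 ^ (n + 3) * 4 = 2 ^ (n + 4) * 2 := by ring
      rw [← e1]; exact h4
    have h6 : 2 ∣ (S : Subgroup G).index := Nat.dvd_of_mul_dvd_mul_left (by positivity) h5
    exact S.not_dvd_index h6
  have hHM : Subgroup.closure {g : G | orderOf g = 2} ≤ M := by
    rw [Subgroup.closure_le]
    intro τ hτ
    obtain ⟨hk1, hk2⟩ := qs_invol_ker S n e χ₁ χ₂ h₁ h₂ hdeg hval τ hτ
    rw [hM]; exact ⟨(hM₁mem τ).mpr hk1, (hM₂mem τ).mpr hk2⟩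
  have hQ' : IsPGroup 2 ((Q : Subgroup ↥(Subgroup.closure {g : G | orderOf g = 2})).map
      (Subgroup.subtype (Subgroup.closure {g : G | orderOf g = 2}))) := Q.isPGroup'.map _
  obtain ⟨Q₁, hQ₁⟩ := hQ'.exists_le_sylow
  obtain ⟨g, hg⟩ := MulAction.exists_smul_eq G Q₁ S
  have hconj : ∀ q : Q, g * ((q : ↥(Subgroup.closure {g : G | orderOf g = 2})) : G) * g⁻¹ ∈
      Subgroup.zpowers x := by
    intro q
    apply hA
    · have hq₁ : ((q : ↥(Subgroup.closure {g : G | orderOf g = 2})) : G) ∈ (Q₁ : Subgroup G) :=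
        hQ₁ ⟨q.1, q.2, rfl⟩
      have h0 : MulAut.conj g • ((q : ↥(Subgroup.closure {g : G | orderOf g = 2})) : G) ∈
          MulAut.conj g • (Q₁ : Subgroup G) := Subgroup.smul_mem_pointwise_smul _ _ _ hq₁
      have h2 : g * ((q : ↥(Subgroup.closure {g : G | orderOf g = 2})) : G) * g⁻¹ ∈
          (g • Q₁ : Sylow 2 G) := by
        rw [Sylow.smul_def]; exact h0
      rw [hg] at h2
      exact h2
    · exact hMn.conj_mem _ (hHM q.1.2) g
  obtain ⟨f, hf⟩ : ∃ f : Q →* ↥(Subgroup.zpowers x), ∀ q : Q,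
      ((f q : ↥(Subgroup.zpowers x)) : G) =
        g * ((q : ↥(Subgroup.closure {g : G | orderOf g = 2})) : G) * g⁻¹ := by
    refine ⟨MonoidHom.mk' (fun q => ⟨g * ((q : ↥(Subgroup.closure {g : G | orderOf g = 2})) : G)
      * g⁻¹, hconj q⟩) ?_, fun q => rfl⟩
    intro a b
    apply Subtype.ext
    show g * (((a : ↥(Subgroup.closure {g : G | orderOf g = 2})) : G) *
      ((b : ↥(Subgroup.closure {g : G | orderOf g = 2})) : G)) * g⁻¹ =
      (g * ((a : ↥(Subgroup.closure {g : G | orderOf g = 2})) : G) * g⁻¹) *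
      (g * ((b : ↥(Subgroup.closure {g : G | orderOf g = 2})) : G) * g⁻¹)
    group
  apply isCyclic_of_injective f
  intro a b hab
  have h1 := congrArg (fun z : ↥(Subgroup.zpowers x) => (z : G)) hab
  simp only [hf] at h1
  have h2 : ((a : ↥(Subgroup.closure {g : G | orderOf g = 2})) : G) =
      ((b : ↥(Subgroup.closure {g : G | orderOf g = 2})) : G) :=
    mul_left_cancel (mul_right_cancel h1)
  exact Subtype.ext (Subtype.ext h2)

end Cfsg.Agent.Lib.Lead
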