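import Mathlib
import Cfsg.Agent.Lib.Lead.QuatSyl5

set_option autoImplicit false
set_option maxHeartbeats 1600000

namespace Cfsg.Agent.Lib.Lead

open Cfsg

universe u

theorem zpowers_normal_of_comm {G : Type u} [Group G] {c : G} (hc : ∀ g : G, g * c = c * g) :
    (Subgroup.zpowers c).Normal := by
  constructor
  intro y hy g
  obtain ⟨k, rfl⟩ := Subgroup.mem_zpowers_iff.mp hy
  have hcomm : Commute g (c ^ k) := (show Commute g c from hc g).zpow_right k
  have h1 : g * c ^ k * g⁻¹ = c ^ k := by rw [hcomm.eq]; group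
  rw [h1]; exact hy

/-- The Brauer–Suzuki theorem for generalized quaternion Sylow `2`-subgroups of order at
least `16`. -/
theorem qs_center {G : Type u} [Group G] [Finite G] (S : Sylow 2 G) (n : ℕ)
    (e : (S : Subgroup G) ≃* QuaternionGroup (2 ^ (n + 2)))
    (hO : ∀ N : Subgroup G, N.Normal → Odd (Nat.card N) → N = ⊥) :
    Nat.card (Subgroup.center G) = 2 := by
  classical
  haveI : Fact (Nat.Prime 2) := ⟨Nat.prime_two⟩
  obtain ⟨x, hxS, hxo, -, hSx, hcard⟩ := qs_structure (S : Subgroup G) n e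
  obtain ⟨H, hH⟩ : ∃ H : Subgroup G, H = Subgroup.closure {g : G | orderOf g = 2} := ⟨_, rfl⟩
  have hHconj : ∀ h ∈ H, ∀ g : G, g * h * g⁻¹ ∈ H := by
    intro h hh g
    rw [hH] at hh ⊢
    induction hh using Subgroup.closure_induction with
    | mem y hy =>
      apply Subgroup.subset_closure
      show orderOf (g * y * g⁻¹) = 2
      rw [conj_orderOf]; exact hy
    | one => simp
    | mul a b ha hb iha ihb =>
      have e1 : g * (a * b) * g⁻¹ = (g * a * g⁻¹) * (g * b * g⁻¹) := by group
      rw [e1]; exact Subgroup.mul_mem _ iha ihb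
    | inv a ha iha =>
      have e1 : g * a⁻¹ * g⁻¹ = (g * a * g⁻¹)⁻¹ := by group
      rw [e1]; exact Subgroup.inv_mem _ iha
  haveI hHn : H.Normal := ⟨hHconj⟩
  obtain ⟨Q⟩ : Nonempty (Sylow 2 ↥H) := inferInstance
  have hQcyc : IsCyclic (Q : Subgroup ↥H) := by
    subst hH
    exact qs_involution_closure_cyclic S n e Q
  obtain ⟨K₀, hK₀n, hK₀compl, hK₀mem⟩ := cyc_syl2_complement Q hQcyc
  obtain ⟨K, hK⟩ : ∃ K : Subgroup G, K = K₀.map H.subtype := ⟨_, rfl⟩
  have hKmem : ∀ g : G, g ∈ K ↔ g ∈ H ∧ Odd (orderOf g) := by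
    intro g
    rw [hK]
    constructor
    · rintro ⟨c, hc, rfl⟩
      refine ⟨c.2, ?_⟩
      have := (hK₀mem c).mp hc
      rwa [← Subgroup.orderOf_coe] at this
    · rintro ⟨hgH, hodd⟩
      refine ⟨⟨g, hgH⟩, (hK₀mem _).mpr ?_, rfl⟩
      rwa [Subgroup.orderOf_mk]
  have hKn : K.Normal := by
    constructor
    intro k hk g
    rw [hKmem] at hk ⊢
    exact ⟨hHconj k hk.1 g, by rw [conj_orderOf]; exact hk.2⟩
  have hKodd : Odd (Nat.card K) := by
    rw [hK, Subgroup.card_map_of_injective (Subgroup.subtype_injective H),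
      ← hK₀compl.index_eq_card, ← Nat.not_even_iff_odd, even_iff_two_dvd]
    exact Q.not_dvd_index
  have hKbot : K = ⊥ := hO K hKn hKodd
  have hK₀bot : K₀ = ⊥ := by
    rw [hK] at hKbot
    exact (Subgroup.map_eq_bot_iff_of_injective K₀ (Subgroup.subtype_injective H)).mp hKbot
  have hQtop : (Q : Subgroup ↥H) = ⊤ := by
    rw [hK₀bot] at hK₀compl
    exact Subgroup.isComplement'_bot_left.mp hK₀compl
  have hHp : IsPGroup 2 ↥H := by
    intro h
    obtain ⟨k, hk⟩ := Q.isPGroup' ⟨h, by rw [hQtop]; exact Subgroup.mem_top h⟩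
    refine ⟨k, ?_⟩
    have := congrArg Subtype.val hk
    simpa using this
  have hHS : H ≤ (S : Subgroup G) := IsPGroup.le_sylow_of_normal hHp S
  have h2G : 2 ∣ Nat.card G := by
    have h1 : orderOf x ∣ Nat.card G := orderOf_dvd_natCard x
    rw [hxo] at h1
    exact (dvd_pow_self 2 (by omega)).trans h1
  obtain ⟨τ, hτ⟩ := exists_prime_orderOf_dvd_card' 2 h2G
  have hτS : ∀ t : G, orderOf t = 2 → t ∈ (S : Subgroup G) := by
    intro t ht
    apply hHS
    rw [hH]; exact Subgroup.subset_closure ht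
  have hτc : τ ∈ Subgroup.center G := by
    rw [Subgroup.mem_center_iff]
    intro g
    have h1 : g * τ * g⁻¹ = τ :=
      qs_unique_involution S n e (hτS _ (by rw [conj_orderOf]; exact hτ)) (hτS τ hτ)
        (by rw [conj_orderOf]; exact hτ) hτ
    calc g * τ = (g * τ * g⁻¹) * g := by group
      _ = τ * g := by rw [h1]
  have hexs : ∃ s ∈ (S : Subgroup G), s ∉ Subgroup.zpowers x := by
    by_contra hcon
    push Not at hcon
    have h1 : (S : Subgroup G) ≤ Subgroup.zpowers x := hcon
    have h2 := Subgroup.card_le_of_le h1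
    rw [hcard, Nat.card_zpowers, hxo] at h2
    have h3 : 2 ^ (n + 4) = 2 * 2 ^ (n + 3) := by ring
    have h4 : 0 < 2 ^ (n + 3) := by positivity
    omega
  obtain ⟨s, hsS, hsx⟩ := hexs
  have hsinv : s * x * s⁻¹ = x⁻¹ := ((hSx s hsS).resolve_left hsx).1
  have hsub : Subgroup.center G ≤ Subgroup.zpowers τ := by
    intro c hc
    have hcc : ∀ g : G, g * c = c * g := fun g => Subgroup.mem_center_iff.mp hc g
    obtain ⟨a, r, hr, har⟩ := Nat.exists_eq_two_pow_mul_odd (orderOf_pos c).ne'
    have hc1 : c ^ (2 ^ a) = 1 := by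
      have hn : (Subgroup.zpowers (c ^ (2 ^ a))).Normal := by
        apply zpowers_normal_of_comm
        intro g
        exact ((show Commute g c from hcc g).pow_right _).eq
      have hodd : Odd (Nat.card (Subgroup.zpowers (c ^ (2 ^ a)))) := by
        rw [Nat.card_zpowers, orderOf_pow, har]
        have e1 : Nat.gcd (2 ^ a * r) (2 ^ a) = 2 ^ a := Nat.gcd_eq_right (Dvd.intro _ rfl)
        rw [e1, Nat.mul_div_cancel_left _ (by positivity)]
        exact hr
      exact Subgroup.zpowers_eq_bot.mp (hO _ hn hodd)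
    have hco : ∃ j, orderOf c = 2 ^ j := by
      have h1 : orderOf c ∣ 2 ^ a := orderOf_dvd_of_pow_eq_one hc1
      obtain ⟨j, -, hj⟩ := (Nat.dvd_prime_pow Nat.prime_two).mp h1
      exact ⟨j, hj⟩
    have hcS : c ∈ (S : Subgroup G) := by
      have hp : IsPGroup 2 (Subgroup.zpowers c) := by
        obtain ⟨j, hj⟩ := hco
        rw [IsPGroup.iff_card]
        exact ⟨j, by rw [Nat.card_zpowers, hj]⟩
      haveI : (Subgroup.zpowers c).Normal := zpowers_normal_of_comm hcc
      exact IsPGroup.le_sylow_of_normal hp S (Subgroup.mem_zpowers c)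
    have hcx : c ∈ Subgroup.zpowers x := by
      rcases hSx c hcS with h | ⟨h, -⟩
      · exact h
      · exfalso
        have h1 : c * x * c⁻¹ = x := by
          rw [← hcc x]; group
        rw [h1] at h
        have h2 : x ^ 2 = 1 := by
          rw [sq]
          nth_rewrite 1 [h]
          exact inv_mul_cancel x
        have h3 := orderOf_dvd_of_pow_eq_one h2
        rw [hxo] at h3
        have h4 := Nat.le_of_dvd (by norm_num) h3
        have h5 : 2 ^ 3 ≤ 2 ^ (n + 3) := Nat.pow_le_pow_right (by norm_num) (by omega)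
        omega
    obtain ⟨k, hk⟩ := Subgroup.mem_zpowers_iff.mp hcx
    have h1 : s * c * s⁻¹ = c⁻¹ := by
      rw [← hk, ← conj_zpow', hsinv, inv_zpow]
    have h2 : s * c * s⁻¹ = c := by
      rw [hcc s]; group
    rw [h2] at h1
    have hc2 : c ^ 2 = 1 := by
      rw [sq]
      nth_rewrite 1 [h1]
      exact inv_mul_cancel c
    by_cases hc1' : c = 1
    · rw [hc1']; exact Subgroup.one_mem _
    · have hco2 : orderOf c = 2 := orderOf_eq_prime hc2 hc1'
      have h3 : c = τ := qs_unique_involution S n e hcS (hτS τ hτ) hco2 hτ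
      rw [h3]; exact Subgroup.mem_zpowers τ
  have heq : Subgroup.center G = Subgroup.zpowers τ :=
    le_antisymm hsub (by rw [Subgroup.zpowers_le]; exact hτc)
  rw [heq, Nat.card_zpowers, hτ]

end Cfsg.Agent.Lib.Lead
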