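import Mathlib

namespace Cfsg.Agent.Lib.Lead

section SelfCentralizing

variable {G : Type*} [Group G]

/-- A subgroup that is the centralizer of each of its nonidentity elements is a TI subgroup. -/
theorem selfCentralizing_TI (A : Subgroup G)
    (hA : ∀ x ∈ A, x ≠ 1 → Subgroup.centralizer ({x} : Set G) = A) (g : G)
    (hg : g ∉ Subgroup.normalizer (A : Set G)) (x : G) (hx : x ∈ A) (hgx : g * x * g⁻¹ ∈ A) :
    x = 1 := by
  by_contra hx1
  apply hg
  have hcx := hA x hx hx1
  have hy1 : g * x * g⁻¹ ≠ 1 := by
    intro h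
    apply hx1
    have : x = g⁻¹ * (g * x * g⁻¹) * g := by group
    rw [this, h]; group
  have hcy := hA _ hgx hy1
  rw [Subgroup.mem_normalizer_iff]
  intro a
  constructor
  · intro ha
    have ha' : a ∈ Subgroup.centralizer ({x} : Set G) := by rw [hcx]; exact ha
    rw [Subgroup.mem_centralizer_singleton_iff] at ha'
    have : g * a * g⁻¹ ∈ Subgroup.centralizer ({g * x * g⁻¹} : Set G) := by
      rw [Subgroup.mem_centralizer_singleton_iff]
      calc g * a * g⁻¹ * (g * x * g⁻¹) = g * (a * x) * g⁻¹ := by group
        _ = g * (x * a) * g⁻¹ := by rw [ha']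
        _ = g * x * g⁻¹ * (g * a * g⁻¹) := by group
    rwa [hcy] at this
  · intro ha
    have ha' : g * a * g⁻¹ ∈ Subgroup.centralizer ({g * x * g⁻¹} : Set G) := by rw [hcy]; exact ha
    rw [Subgroup.mem_centralizer_singleton_iff] at ha'
    have : a ∈ Subgroup.centralizer ({x} : Set G) := by
      rw [Subgroup.mem_centralizer_singleton_iff]
      calc a * x = g⁻¹ * (g * a * g⁻¹ * (g * x * g⁻¹)) * g := by group
        _ = g⁻¹ * (g * x * g⁻¹ * (g * a * g⁻¹)) * g := by rw [ha']
        _ = x * a := by group
    rwa [hcx] at this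

/-- For a self-centralizing TI subgroup `A`, `|N(A) : A|` divides `|A| - 1`. -/
theorem selfCentralizing_index_dvd [Finite G] (A : Subgroup G)
    (hA : ∀ x ∈ A, x ≠ 1 → Subgroup.centralizer ({x} : Set G) = A) :
    (A.subgroupOf (Subgroup.normalizer (A : Set G))).index ∣ Nat.card A - 1 := by
  classical
  let X := {a : G // a ∈ A ∧ a ≠ 1}
  letI : MulAction (Subgroup.normalizer (A : Set G)) X :=
    { smul := fun n x => ⟨(n : G) * x.1 * (n : G)⁻¹,
        (Subgroup.mem_normalizer_iff.mp n.2 x.1).mp x.2.1, fun h => x.2.2 (by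
          have : x.1 = (n : G)⁻¹ * ((n : G) * x.1 * (n : G)⁻¹) * (n : G) := by group
          rw [this, h]; group)⟩
      one_smul := fun x => Subtype.ext (by
        show ((1 : Subgroup.normalizer (A : Set G)) : G) * x.1 *
          ((1 : Subgroup.normalizer (A : Set G)) : G)⁻¹ = x.1
        simp)
      mul_smul := fun a b x => Subtype.ext (by
        show ((a * b : Subgroup.normalizer (A : Set G)) : G) * x.1 *
          ((a * b : Subgroup.normalizer (A : Set G)) : G)⁻¹ =
          (a : G) * ((b : G) * x.1 * (b : G)⁻¹) * (a : G)⁻¹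
        simp only [Subgroup.coe_mul]
        group) }
  have hsmul : ∀ (n : Subgroup.normalizer (A : Set G)) (x : X),
      ((n • x : X) : G) = (n : G) * x.1 * (n : G)⁻¹ := fun n x => rfl
  have hstab : ∀ x : X, MulAction.stabilizer (Subgroup.normalizer (A : Set G)) x =
      A.subgroupOf (Subgroup.normalizer (A : Set G)) := by
    intro x
    ext n
    rw [MulAction.mem_stabilizer_iff, Subgroup.mem_subgroupOf]
    constructor
    · intro h
      have h1 : (n : G) * x.1 * (n : G)⁻¹ = x.1 := by rw [← hsmul, h]
      have h2 : (n : G) ∈ Subgroup.centralizer ({x.1} : Set G) := by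
        rw [Subgroup.mem_centralizer_singleton_iff]
        calc (n : G) * x.1 = ((n : G) * x.1 * (n : G)⁻¹) * n := by group
          _ = x.1 * n := by rw [h1]
      rw [hA x.1 x.2.1 x.2.2] at h2
      exact h2
    · intro h
      apply Subtype.ext
      rw [hsmul]
      have h2 : (n : G) ∈ Subgroup.centralizer ({x.1} : Set G) := by
        rw [hA x.1 x.2.1 x.2.2]; exact h
      rw [Subgroup.mem_centralizer_singleton_iff] at h2
      rw [h2]; group
  letI : Fintype (Quotient (MulAction.orbitRel (Subgroup.normalizer (A : Set G)) X)) :=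
    Fintype.ofFinite _
  have e := MulAction.selfEquivSigmaOrbitsQuotientStabilizer (Subgroup.normalizer (A : Set G)) X
  have hcard : Nat.card X =
      Nat.card (Quotient (MulAction.orbitRel (Subgroup.normalizer (A : Set G)) X)) *
        (A.subgroupOf (Subgroup.normalizer (A : Set G))).index := by
    rw [Nat.card_congr e, Nat.card_sigma]
    have h3 : ∀ ω : Quotient (MulAction.orbitRel (Subgroup.normalizer (A : Set G)) X),
        Nat.card (Subgroup.normalizer (A : Set G) ⧸
          MulAction.stabilizer (Subgroup.normalizer (A : Set G)) ω.out) =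
        (A.subgroupOf (Subgroup.normalizer (A : Set G))).index := by
      intro ω
      rw [← hstab ω.out]
      rfl
    rw [Finset.sum_congr rfl (fun ω _ => h3 ω), Finset.sum_const, Finset.card_univ,
      smul_eq_mul, Nat.card_eq_fintype_card]
  have hX : Nat.card X = Nat.card A - 1 := by
    letI : Fintype A := Fintype.ofFinite A
    have e2 : X ≃ {a : A // ¬ (a = 1)} :=
      { toFun := fun x => ⟨⟨x.1, x.2.1⟩, fun h => x.2.2 (congrArg Subtype.val h)⟩
        invFun := fun a => ⟨a.1.1, a.1.2, fun h => a.2 (Subtype.ext h)⟩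
        left_inv := fun x => rfl
        right_inv := fun a => rfl }
    rw [Nat.card_congr e2, Nat.card_eq_fintype_card, Fintype.card_subtype_compl,
      Fintype.card_subtype_eq, Nat.card_eq_fintype_card]
  rw [← hX, hcard]
  exact dvd_mul_left _ _

end SelfCentralizing

end Cfsg.Agent.Lib.Lead
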